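import Mathlib
import Cfsg.Agent.Lib.FCRep.Converse

/-!
# Fixed-point-free irreducible representations over an algebraically closed field of characteristic 0
-/

set_option autoImplicit false

open scoped Classical

namespace CfsgLib.Spectrum.FPFIrred

open CfsgLib.FCRep

variable {A : Type*} [Group A] [Finite A] {K : Type*} [Field K] [CharZero K]

/-- Norm-freeness over `ℤ` passes to every field of characteristic zero. -/
theorem one_notMem_of_normFree (h : NormFree A) :
    (1 : MonoidAlgebra K A) ∉ normIdeal K A := by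
  obtain ⟨π, hπ⟩ := (Algebra.linearMap ℚ K).exists_leftInverse_of_injective
    (LinearMap.ker_eq_bot.2 (algebraMap ℚ K).injective)
  have hπ1 : π 1 = 1 := by
    have := LinearMap.congr_fun hπ 1
    simpa using this
  let Φ : MonoidAlgebra K A →ₗ[ℚ] MonoidAlgebra ℚ A :=
    (MonoidAlgebra.coeffLinearEquiv ℚ).symm.toLinearMap ∘ₗ Finsupp.mapRange.linearMap π ∘ₗ
      (MonoidAlgebra.coeffLinearEquiv ℚ).toLinearMap
  have hΦ : ∀ g c, Φ (MonoidAlgebra.single g c) = MonoidAlgebra.single g (π c) := by
    intro g c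
    apply MonoidAlgebra.coeff_injective
    ext x
    simp [Φ, MonoidAlgebra.coeffLinearEquiv, Finsupp.single_apply, apply_ite π]
  let fQ := MonoidAlgebra.mapRingHom A (Int.castRingHom ℚ)
  let fK := MonoidAlgebra.mapRingHom A (Int.castRingHom K)
  have key : ∀ (g : A) (c : K) (z : MonoidAlgebra ℤ A),
      Φ (MonoidAlgebra.single g c * fK z) = MonoidAlgebra.single g (π c) * fQ z := by
    intro g c z
    induction z using MonoidAlgebra.induction_linear with
    | zero => simp [fK, fQ]
    | add x y hx hy => rw [map_add, map_add, mul_add, mul_add, map_add, hx, hy]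
    | single x n =>
      simp only [fK, fQ, MonoidAlgebra.mapRingHom_single, MonoidAlgebra.single_mul_single, hΦ,
        eq_intCast]
      congr 1
      rw [mul_comm, ← zsmul_eq_mul, map_zsmul, zsmul_eq_mul, mul_comm]
  let P : MonoidAlgebra ℚ A → Prop := fun w =>
    ∃ m : ℕ, m ≠ 0 ∧ ∃ y ∈ normIdeal ℤ A, (m : MonoidAlgebra ℚ A) * w = fQ y
  have P0 : P 0 := ⟨1, one_ne_zero, 0, zero_mem _, by simp [fQ]⟩
  have Padd : ∀ u v, P u → P v → P (u + v) := by
    rintro u v ⟨m, hm, y, hy, e⟩ ⟨m', hm', y', hy', e'⟩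
    refine ⟨m * m', mul_ne_zero hm hm', (m' : MonoidAlgebra ℤ A) * y + (m : MonoidAlgebra ℤ A) * y',
      add_mem (Ideal.mul_mem_left _ _ hy) (Ideal.mul_mem_left _ _ hy'), ?_⟩
    rw [map_add, map_mul, map_mul, map_natCast, map_natCast, ← e, ← e', mul_add, Nat.cast_mul,
      ← mul_assoc, ← mul_assoc]
    congr 1
    rw [(Nat.cast_commute m (m' : MonoidAlgebra ℚ A)).eq]
  have main : ∀ x ∈ normIdeal K A, ∀ d : MonoidAlgebra K A, P (Φ (d * x)) := by
    intro x hx
    induction hx using Submodule.span_induction with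
    | mem y hy =>
      obtain ⟨a, g, ha, rfl⟩ := hy
      have e : normSum K A a * MonoidAlgebra.of K A g =
          fK (normSum ℤ A a * MonoidAlgebra.of ℤ A g) := by
        simp [fK, map_normSum, MonoidAlgebra.of_apply]
      intro d
      induction d using MonoidAlgebra.induction_linear with
      | zero => rw [zero_mul, map_zero]; exact P0
      | add u v hu hv => rw [add_mul, map_add]; exact Padd _ _ hu hv
      | single h c =>
        rw [e, key]
        refine ⟨(π c).den, (π c).den_nz, MonoidAlgebra.single h (π c).num *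
          (normSum ℤ A a * MonoidAlgebra.of ℤ A g),
          Ideal.mul_mem_left _ _ (normSum_mul_mem ha _), ?_⟩
        rw [map_mul fQ (MonoidAlgebra.single h (π c).num), ← mul_assoc, MonoidAlgebra.natCast_def,
          MonoidAlgebra.single_mul_single, one_mul]
        simp only [fQ, MonoidAlgebra.mapRingHom_single, eq_intCast]
        congr 2
        rw [mul_comm, Rat.mul_den_eq_num]
    | zero => intro d; rw [mul_zero, map_zero]; exact P0
    | add u v _ _ hu hv => intro d; rw [mul_add, map_add]; exact Padd _ _ (hu d) (hv d)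
    | smul c u _ hu => intro d; rw [smul_eq_mul, ← mul_assoc]; exact hu _
  intro hone
  obtain ⟨m, hm, y, hy, e⟩ := main 1 hone 1
  rw [one_mul, MonoidAlgebra.one_def, hΦ, hπ1, ← MonoidAlgebra.one_def, mul_one] at e
  have hinj : Function.Injective fQ := by
    intro u v huv
    apply MonoidAlgebra.coeff_injective
    ext g
    have := congrArg (fun z : MonoidAlgebra ℚ A => z.coeff g) huv
    simpa [fQ, coeff_mapRingHom'] using this
  have : y = (m : MonoidAlgebra ℤ A) := hinj (by rw [← e, map_natCast])
  exact h m hm (this ▸ hy)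

/-- An invariant nonzero subspace of least dimension yields an irreducible fixed-point-free
matrix representation. -/
theorem exists_irreducible_fpf (h : NormFree A) :
    ∃ (n : ℕ) (ρ : A →* GL (Fin n) K), 0 < n ∧ Function.Injective ρ ∧
      (∀ W : Submodule K (Fin n → K),
        (∀ g : A, ∀ w ∈ W, ((ρ g : GL (Fin n) K) : Matrix (Fin n) (Fin n) K).mulVec w ∈ W) →
          W = ⊥ ∨ W = ⊤) ∧
      ∀ g : A, g ≠ 1 → ∀ v : Fin n → K,
        ((ρ g : GL (Fin n) K) : Matrix (Fin n) (Fin n) K).mulVec v = v → v = 0 := by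
  haveI := Fintype.ofFinite A
  let R := MonoidAlgebra K A
  let V := R ⧸ normIdeal K A
  haveI : FiniteDimensional K R := Module.Finite.equiv
    (MonoidAlgebra.coeffLinearEquiv K (M := A) (S := K)).symm
  haveI : FiniteDimensional K V := Module.Finite.of_surjective
    ((Submodule.mkQ (normIdeal K A)).restrictScalars K) (Submodule.Quotient.mk_surjective _)
  let σ : A → V →ₗ[K] V := fun a =>
    DistribMulAction.toLinearMap K V (MonoidAlgebra.of K A a)
  have hσmul : ∀ a b v, σ (a * b) v = σ a (σ b v) := by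
    intro a b v
    show MonoidAlgebra.of K A (a * b) • v = _
    rw [map_mul]
    exact mul_smul _ _ v
  have hσ1 : ∀ v, σ 1 v = v := by
    intro v
    show MonoidAlgebra.of K A 1 • v = v
    rw [map_one, one_smul]
  have hfpf : ∀ a : A, a ≠ 1 → ∀ d : V, σ a d = d → d = 0 := by
    intro a ha d hd
    have h1 : MonoidAlgebra.of K A a • d = d := hd
    have h2 : ∀ i : ℕ, MonoidAlgebra.of K A (a ^ i) • d = d := by
      intro i
      induction i with
      | zero => rw [pow_zero, map_one, one_smul]
      | succ i ih => rw [pow_succ, map_mul, mul_smul, h1, ih]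
    have h3 : normSum K A a • d = (orderOf a : K) • d := by
      rw [normSum, Finset.sum_smul, Finset.sum_congr rfl fun i _ => h2 i, Finset.sum_const,
        Finset.card_range, Nat.cast_smul_eq_nsmul]
    have h4 : normSum K A a • d = 0 := by
      obtain ⟨z, hz⟩ := Submodule.Quotient.mk_surjective _ d
      rw [← hz, ← Submodule.Quotient.mk_smul, Submodule.Quotient.mk_eq_zero]
      exact normSum_mul_mem ha z
    rw [h4, eq_comm, smul_eq_zero] at h3
    exact h3.resolve_left (Nat.cast_ne_zero.2 (orderOf_pos a).ne')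
  have hV : (⊤ : Submodule K V) ≠ ⊥ := by
    rw [Submodule.ne_bot_iff]
    exact ⟨Submodule.Quotient.mk 1, trivial, fun e =>
      one_notMem_of_normFree h ((Submodule.Quotient.mk_eq_zero _).1 e)⟩
  let Good : Submodule K V → Prop := fun W => W ≠ ⊥ ∧ ∀ a, ∀ w ∈ W, σ a w ∈ W
  obtain ⟨W, hW, hmin⟩ : ∃ W, Good W ∧ ∀ W', Good W' → Module.finrank K W ≤ Module.finrank K W' := by
    have hex : ∃ d, ∃ W, Good W ∧ Module.finrank K W = d :=
      ⟨_, ⊤, ⟨hV, fun a w _ => trivial⟩, rfl⟩
    obtain ⟨W, hW, hd⟩ := Nat.find_spec hex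
    exact ⟨W, hW, fun W' hW' => hd ▸ Nat.find_min' hex ⟨W', hW', rfl⟩⟩
  let n := Module.finrank K W
  have hn : 0 < n := Nat.pos_of_ne_zero fun e => hW.1 (Submodule.finrank_eq_zero.1 e)
  let e : W ≃ₗ[K] (Fin n → K) := (Module.finBasis K W).equivFun
  let τ : A → (Fin n → K) →ₗ[K] (Fin n → K) := fun a =>
    e.toLinearMap ∘ₗ ((σ a).restrict (hW.2 a)) ∘ₗ e.symm.toLinearMap
  have hτv : ∀ a v, (e.symm (τ a v) : V) = σ a (e.symm v) := by
    intro a v
    simp [τ]
  have hτinj : ∀ u v : Fin n → K, (e.symm u : V) = e.symm v → u = v :=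
    fun u v huv => e.symm.injective (Subtype.ext huv)
  let M : A →* Matrix (Fin n) (Fin n) K :=
    { toFun := fun a => LinearMap.toMatrix' (τ a)
      map_one' := by
        rw [← LinearMap.toMatrix'_id]
        congr 1
        refine LinearMap.ext fun v => hτinj _ _ ?_
        rw [hτv, hσ1]
        rfl
      map_mul' := fun a b => by
        rw [← LinearMap.toMatrix'_comp]
        congr 1
        refine LinearMap.ext fun v => hτinj _ _ ?_
        show (e.symm (τ (a * b) v) : V) = e.symm (τ a (τ b v))
        rw [hτv, hτv, hτv, hσmul] }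
  let ρ : A →* GL (Fin n) K := M.toHomUnits
  have hρv : ∀ a v, ((ρ a : GL (Fin n) K) : Matrix (Fin n) (Fin n) K).mulVec v = τ a v := by
    intro a v
    show (LinearMap.toMatrix' (τ a)).mulVec v = τ a v
    exact LinearMap.toMatrix'_mulVec _ _
  have hρfpf : ∀ g : A, g ≠ 1 → ∀ v : Fin n → K,
      ((ρ g : GL (Fin n) K) : Matrix (Fin n) (Fin n) K).mulVec v = v → v = 0 := by
    intro g hg v hv
    rw [hρv] at hv
    refine hτinj _ _ ?_
    rw [map_zero, Submodule.coe_zero]
    exact hfpf g hg _ (by rw [← hτv, hv])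
  refine ⟨n, ρ, hn, ?_, ?_, hρfpf⟩
  · refine (injective_iff_map_eq_one ρ).2 fun g hg => ?_
    by_contra hg1
    haveI : NeZero n := ⟨hn.ne'⟩
    have := hρfpf g hg1 (Pi.single 0 1) (by rw [hg, Units.val_one, Matrix.one_mulVec])
    simpa using congrFun this 0
  · intro U hU
    by_cases hU0 : U = ⊥
    · exact Or.inl hU0
    refine Or.inr ?_
    let U' : Submodule K V := U.map (W.subtype ∘ₗ e.symm.toLinearMap)
    have hinj : Function.Injective (W.subtype ∘ₗ e.symm.toLinearMap) :=
      W.injective_subtype.comp e.symm.injective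
    have hgood : Good U' := by
      refine ⟨fun e0 => hU0 ?_, ?_⟩
      · rw [eq_bot_iff] at e0 ⊢
        intro u hu
        exact hinj (by rw [map_zero]; exact e0 (Submodule.mem_map_of_mem hu))
      · rintro a w ⟨u, hu, rfl⟩
        refine ⟨τ a u, ?_, hτv a u⟩
        rw [← hρv]
        exact hU a u hu
    have := hmin U' hgood
    have h2 : Module.finrank K U' = Module.finrank K U :=
      (LinearEquiv.finrank_eq (Submodule.equivMapOfInjective _ hinj U)).symm
    refine Submodule.eq_top_of_finrank_eq (le_antisymm (Submodule.finrank_le _) ?_)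
    rw [Module.finrank_fin_fun]
    omega

end CfsgLib.Spectrum.FPFIrred
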