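import Mathlib
import Cfsg.Agent.Lib.PermGroups.Zassenhaus.Main
import Cfsg.Agent.Lib.Balance.CentralizerCore
import Cfsg.Agent.Lib.Spectrum.FPFIrred

/-!
# Solvable Frobenius complements: a metacyclic normal subgroup with quotient inside `Sym(4)`
-/

set_option autoImplicit false

open scoped Classical commutatorElement

namespace CfsgLib.Spectrum.FCStructure

open CfsgLib.PermGroups

/-! ## `Aut(Q₈)` on four objects -/

abbrev Q8 := QuaternionGroup 2

/-- Four classes of triples of mutually orthogonal units, up to sign. -/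
def obj : Fin 4 → Finset (Finset Q8)
  | 0 => {{.a 1, .xa 0, .xa 1}, {.a 3, .xa 2, .xa 3}}
  | 1 => {{.a 1, .xa 0, .xa 3}, {.a 3, .xa 2, .xa 1}}
  | 2 => {{.a 1, .xa 2, .xa 1}, {.a 3, .xa 0, .xa 3}}
  | 3 => {{.a 1, .xa 2, .xa 3}, {.a 3, .xa 0, .xa 1}}

/-- The image of an object. -/
def img (f : Q8 → Q8) (s : Finset (Finset Q8)) : Finset (Finset Q8) := s.image fun t => t.image f

/-- The index of an object. -/
def idx (s : Finset (Finset Q8)) : Fin 4 :=
  if s = obj 0 then 0 else if s = obj 1 then 1 else if s = obj 2 then 2 else 3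

theorem q8map_facts : ∀ u v : Q8,
    (∀ x y, q8map u v (x * y) = q8map u v x * q8map u v y) → (∀ x, q8map u v x = 1 → x = 1) →
      (∀ k, obj (idx (img (q8map u v) (obj k))) = img (q8map u v) (obj k)) ∧
      ((∀ k, idx (img (q8map u v) (obj k)) = k) → ∀ x, q8map u v x = x) := by
  decide +kernel

theorem idx_obj : ∀ k, idx (obj k) = k := by decide +kernel

theorem mulAut_facts (φ : MulAut Q8) :
    (∀ k, obj (idx (img φ (obj k))) = img φ (obj k)) ∧ ((∀ k, idx (img φ (obj k)) = k) → φ = 1) := by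
  have heq : (φ : Q8 → Q8) = q8map (φ (.a 1)) (φ (.xa 0)) := funext fun x => by
    cases x with
    | a i =>
      show _ = φ (.a 1) ^ i.val
      rw [← map_pow, QuaternionGroup.a_one_pow, ZMod.natCast_zmod_val]
    | xa i =>
      show _ = φ (.xa 0) * φ (.a 1) ^ i.val
      rw [← map_pow, ← map_mul, QuaternionGroup.a_one_pow, ZMod.natCast_zmod_val,
        QuaternionGroup.xa_mul_a, zero_add]
  obtain ⟨h1, h2⟩ := q8map_facts (φ (.a 1)) (φ (.xa 0)) (fun x y => by rw [← heq, map_mul])
    (fun x hx => φ.injective (show φ x = φ 1 by rw [map_one, heq]; exact hx))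
  refine ⟨fun k => heq.symm ▸ h1 k, fun hk => MulEquiv.ext fun x => ?_⟩
  rw [heq]
  exact h2 (heq ▸ hk) x

/-- `Aut(Q₈) → Sym(4)` -/
def autHom : MulAut Q8 →* Equiv.Perm (Fin 4) :=
  MonoidHom.toHomPerm
    { toFun := fun φ k => idx (img φ (obj k))
      map_one' := funext fun k => by
        show idx (img (id : Q8 → Q8) (obj k)) = k
        rw [show img (id : Q8 → Q8) (obj k) = obj k by simp [img], idx_obj]
      map_mul' := fun φ ψ => funext fun k => by
        show idx (img (φ * ψ : MulAut Q8) (obj k)) = idx (img φ (obj (idx (img ψ (obj k)))))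
        rw [(mulAut_facts ψ).1 k]
        congr 1
        simp [img, Finset.image_image, Function.comp_def, MulAut.mul_apply] }

theorem autHom_injective : Function.Injective autHom := by
  refine (injective_iff_map_eq_one autHom).2 fun φ h => (mulAut_facts φ).2 fun k => ?_
  exact Equiv.congr_fun h k

theorem center_q8 : ∀ z : Q8, (∀ x, x * z = z * x) → z = 1 ∨ z = .a 2 := by decide +kernel

/-! ## Representations -/

section Rep

variable {k : Type*} [Field k] [CharZero k] {V : Type*} [AddCommGroup V] [Module k V] [Nontrivial V]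
  {G : Type*} [Group G] [Finite G] (ρ : G →* Module.End k V)
  (hfpf : ∀ g : G, g ≠ 1 → ∀ v : V, ρ g v = v → v = 0)

include hfpf

omit [CharZero k] [Nontrivial V] [Finite G] in
theorem sum_pow_eq_zero {a : G} {p : ℕ} (hp : a ^ p = 1) (ha : a ≠ 1) :
    ∑ i ∈ Finset.range p, ρ a ^ i = 0 := by
  refine LinearMap.ext fun v => hfpf a ha _ ?_
  have h3 : ρ a * (∑ i ∈ Finset.range p, ρ a ^ i) = ∑ i ∈ Finset.range p, ρ a ^ i := by
    rw [Finset.mul_sum]
    simp only [← pow_succ']
    have h4 := Finset.sum_range_succ (fun i => ρ a ^ i) p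
    have h5 : ρ a ^ p = 1 := by rw [← map_pow, hp, map_one]
    rw [Finset.sum_range_succ', h5, pow_zero] at h4
    exact add_right_cancel h4
  exact LinearMap.congr_fun h3 v

/-- In a group of order `p q` with such a representation the two generators commute. -/
theorem comm_of_prime {a b : G} {p q : ℕ} [hp : Fact p.Prime] [hq : Fact q.Prime]
    (ha : orderOf a = p) (hb : orderOf b = q) (hn : a * b * a⁻¹ ∈ Subgroup.zpowers b) :
    a * b = b * a := by
  by_contra hne
  have ha1 : a ≠ 1 := fun e => by rw [e, orderOf_one] at ha; exact hp.out.one_lt.ne ha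
  have hb1 : b ≠ 1 := fun e => by rw [e, orderOf_one] at hb; exact hq.out.one_lt.ne hb
  have hz := Subgroup.mem_zpowers_iff.1 hn
  have hnl : ∀ l : ℕ, a ^ l * b * (a ^ l)⁻¹ ∈ Subgroup.zpowers b := by
    intro l
    induction l with
    | zero => simp
    | succ l ih =>
      obtain ⟨j, hj⟩ := Subgroup.mem_zpowers_iff.1 ih
      rw [show a ^ (l + 1) * b * (a ^ (l + 1))⁻¹ = a * (a ^ l * b * (a ^ l)⁻¹) * a⁻¹ by
        rw [pow_succ']; group, ← hj, ← conj_zpow]
      exact Subgroup.zpow_mem _ hn j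
  haveI : NeZero q := ⟨hq.out.ne_zero⟩
  let β : ZMod q → Module.End k V := fun i => ρ (b ^ i.val)
  have hbv : ∀ n : ℕ, b ^ (n : ZMod q).val = b ^ n := fun n => by
    rw [ZMod.val_natCast, ← hb, pow_mod_orderOf]
  have hβ0 : ∑ i : ZMod q, β i = 0 := by
    rw [← sum_pow_eq_zero ρ hfpf (hb ▸ pow_orderOf_eq_one b) hb1]
    refine Finset.sum_bij (fun i _ => i.val) (fun i _ => Finset.mem_range.2 (ZMod.val_lt i))
      (fun i _ j _ e => ZMod.val_injective q e)
      (fun j hj => ⟨(j : ZMod q), Finset.mem_univ _, ZMod.val_cast_of_lt (Finset.mem_range.1 hj)⟩)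
      (fun i _ => map_pow ρ b i.val)
  -- every non-trivial power of `a` averaged over `⟨b⟩` vanishes
  have key : ∀ l ∈ Finset.range p, l ≠ 0 →
      ∑ i : ZMod q, ρ (b ^ i.val * a ^ l * (b ^ i.val)⁻¹) = 0 := by
    intro l hl hl0
    obtain ⟨j, hj⟩ := Subgroup.mem_zpowers_iff.1 (hnl l)
    have hj1 : (1 : ZMod q) - (j : ZMod q) ≠ 0 := by
      intro h0
      rw [sub_eq_zero] at h0
      have hdvd : (q : ℤ) ∣ j - 1 := by
        rw [← ZMod.intCast_zmod_eq_zero_iff_dvd]; push_cast; rw [← h0, sub_self]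
      have hbj : b ^ j = b := by
        have : b ^ (j - 1) = 1 := by
          rw [← hb] at hdvd
          exact orderOf_dvd_iff_zpow_eq_one.1 hdvd
        rw [zpow_sub, zpow_one, mul_inv_eq_one] at this
        exact this
      rw [hbj] at hj
      have hc : Commute (a ^ l) b := (mul_inv_eq_iff_eq_mul.1 hj.symm)
      have hcop : Nat.Coprime l (orderOf a) := by
        rw [ha]
        exact (Nat.coprime_of_lt_prime hl0 (Finset.mem_range.1 hl) hp.out).symm
      obtain ⟨m, hm⟩ := exists_pow_eq_self_of_coprime hcop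
      rw [← hm] at hne
      exact hne (hc.pow_left m).eq
    have e : ∀ i : ZMod q, ρ (b ^ i.val * a ^ l * (b ^ i.val)⁻¹) = β ((1 - j) * i) * ρ (a ^ l) := by
      intro i
      have e1 : a ^ l * (b ^ i.val)⁻¹ = b ^ (-(j * (i.val : ℤ))) * a ^ l := by
        have e2 : a ^ l * (b ^ i.val)⁻¹ * (a ^ l)⁻¹ = (b ^ j) ^ (-(i.val : ℤ)) := by
          rw [hj, conj_zpow, zpow_neg, zpow_natCast]
        rw [← zpow_mul, mul_neg] at e2
        exact mul_inv_eq_iff_eq_mul.1 e2
      show _ = ρ (b ^ ((1 - (j : ZMod q)) * i).val) * ρ (a ^ l)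
      rw [← map_mul, mul_assoc, e1, ← mul_assoc, ← zpow_natCast, ← zpow_add]
      congr 2
      rw [← zpow_natCast, zpow_eq_zpow_iff_modEq, hb, ← ZMod.intCast_eq_intCast_iff]
      push_cast
      rw [ZMod.natCast_zmod_val, ZMod.natCast_zmod_val]
      ring
    rw [Finset.sum_congr rfl fun i _ => e i, ← Finset.sum_mul,
      Fintype.sum_equiv (Equiv.mulLeft₀ _ hj1) (fun i => β ((1 - (j : ZMod q)) * i)) β (fun i => rfl),
      hβ0, zero_mul]
  -- add everything
  have hA : ∀ i : ZMod q, ∑ l ∈ Finset.range p, ρ (b ^ i.val * a ^ l * (b ^ i.val)⁻¹) = 0 := by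
    intro i
    simp only [← conj_pow, map_pow]
    refine sum_pow_eq_zero ρ hfpf ?_ fun e => ha1 (conj_eq_one_iff.1 e)
    rw [conj_pow, ← ha, pow_orderOf_eq_one, mul_one, mul_inv_cancel]
  have h0 : ∑ l ∈ Finset.range p, ∑ i : ZMod q, ρ (b ^ i.val * a ^ l * (b ^ i.val)⁻¹) = 0 := by
    rw [Finset.sum_comm]; exact Finset.sum_eq_zero fun i _ => hA i
  rw [Finset.sum_eq_single 0 (fun l hl hl0 => key l hl hl0)
    (fun h => absurd (Finset.mem_range.2 hp.out.pos) h)] at h0
  simp only [pow_zero, mul_one, mul_inv_cancel, map_one, Finset.sum_const, Finset.card_univ, ZMod.card] at h0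
  obtain ⟨v, hv⟩ := exists_ne (0 : V)
  have h1 := LinearMap.congr_fun h0 v
  rw [LinearMap.smul_apply, Module.End.one_apply, LinearMap.zero_apply, ← Nat.cast_smul_eq_nsmul k,
    smul_eq_zero] at h1
  exact h1.elim (Nat.cast_ne_zero.2 hq.out.ne_zero) hv

/-- A homomorphism to `Sym(4)` all whose kernel 2-subgroups are cyclic. -/
theorem exists_hom_four [Group.IsSolvable G] :
    ∃ f : G →* Equiv.Perm (Fin 4), ∀ R : Subgroup G, IsPGroup 2 R → R ≤ f.ker → IsCyclic R := by
  haveI : Fact (Nat.Prime 2) := ⟨Nat.prime_two⟩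
  have hcard : (Nat.card G : k) ≠ 0 := Nat.cast_ne_zero.2 Nat.card_pos.ne'
  set O := Cfsg.pPrimeCore 2 G with hO
  set π := QuotientGroup.mk' O with hπdef
  have hinj : ∀ R : Subgroup G, IsPGroup 2 R → ∀ x ∈ R, π x = 1 → x = 1 := by
    intro R hR x hx hx1
    have h1 : x ∈ O := (QuotientGroup.eq_one_iff x).1 hx1
    obtain ⟨n, hn⟩ := hR ⟨x, hx⟩
    have h2 : orderOf x ∣ 2 ^ n := orderOf_dvd_of_pow_eq_one (congrArg Subtype.val hn)
    have h3 : orderOf x ∣ Nat.card O := by
      rw [← Subgroup.orderOf_mk x h1]; exact orderOf_dvd_natCard _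
    exact orderOf_eq_one_iff.1 (Nat.eq_one_of_dvd_coprimes
      (((Cores.card_pPrimeCore_coprime (G := G) 2).pow_right n).symm) h2 h3)
  obtain ⟨P⟩ := (inferInstance : Nonempty (Sylow 2 G))
  let πP : (P : Subgroup G) →* G ⧸ O := π.comp (P : Subgroup G).subtype
  have hπP : Function.Injective πP := (injective_iff_map_eq_one πP).2 fun x hx =>
    Subtype.ext (hinj _ P.isPGroup' x x.2 hx)
  set Qb := Cfsg.pCore 2 (G ⧸ O) with hQb
  have hC : Subgroup.centralizer (Qb : Set (G ⧸ O)) ≤ Qb :=
    CfsgLib.Balance.centralizer_pCore_le_of_isSolvable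
  haveI hQn : Qb.Normal := by
    rw [hQb]; infer_instance
  have hQle : Qb ≤ (P : Subgroup G).map π :=
    Cores.pCore_le_sylow (P.mapSurjective (QuotientGroup.mk'_surjective O))
  -- `Qb` is cyclic or quaternion
  let Q : Subgroup G := Qb.comap π ⊓ (P : Subgroup G)
  have hQp : IsPGroup 2 Q := P.isPGroup'.to_le inf_le_right
  let eQ : Q ≃* Qb := MulEquiv.ofBijective
    (MonoidHom.mk' (fun x : Q => (⟨π (x : G), x.2.1⟩ : Qb)) fun a b => Subtype.ext (map_mul π (a : G) (b : G)))
    ⟨fun a b e => Subtype.ext (congrArg (fun z : (P : Subgroup G) => (z : G))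
        (hπP (a₁ := ⟨a, a.2.2⟩) (a₂ := ⟨b, b.2.2⟩) (congrArg Subtype.val e))), fun y => by
      obtain ⟨x, hx, hxy⟩ := hQle y.2
      exact ⟨⟨x, show π x ∈ Qb by rw [hxy]; exact y.2, hx⟩, Subtype.ext hxy⟩⟩
  let ψ : G ⧸ O →* MulAut Qb := MulAut.conjNormal
  have hψ : ∀ x, ψ x = 1 → x ∈ Subgroup.centralizer (Qb : Set (G ⧸ O)) := by
    intro x hx
    rw [Subgroup.mem_centralizer_iff]
    intro y hy
    have := congrArg (fun e : MulAut Qb => ((e ⟨y, hy⟩ : Qb) : G ⧸ O)) hx
    simp only [ψ, MulAut.conjNormal_apply, MulAut.one_apply] at this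
    exact (mul_inv_eq_iff_eq_mul.1 this).symm
  -- if `Aut Qb` is a 2-group, the image of `P` is everything
  have caseA : IsPGroup 2 (MulAut Qb) →
      ∃ f : G →* Equiv.Perm (Fin 4), ∀ R : Subgroup G, IsPGroup 2 R → R ≤ f.ker → IsCyclic R := by
    intro hA
    have h2 : IsPGroup 2 (G ⧸ O) := by
      have hker : IsPGroup 2 ψ.ker :=
        (Cores.isPGroup_pCore 2 (G ⧸ O)).to_le (le_trans (fun x hx => hψ x hx) hC)
      intro x
      obtain ⟨i, hi⟩ := hA (ψ x)
      obtain ⟨j, hj⟩ := hker ⟨x ^ 2 ^ i, by rw [MonoidHom.mem_ker, map_pow, hi]⟩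
      exact ⟨i + j, by rw [pow_add, pow_mul]; exact congrArg Subtype.val hj⟩
    have hsurj : Function.Surjective πP := by
      have hPtop := ((P.mapSurjective (QuotientGroup.mk'_surjective O)).is_maximal'
        (h2.to_subgroup ⊤) le_top)
      intro y
      have hy : y ∈ (P : Subgroup G).map π := by
        show y ∈ ((P.mapSurjective (QuotientGroup.mk'_surjective O) : Sylow 2 (G ⧸ O)) : Subgroup (G ⧸ O))
        rw [← hPtop]; trivial
      obtain ⟨x, hx, rfl⟩ := hy
      exact ⟨⟨x, hx⟩, rfl⟩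
    let eP : (P : Subgroup G) ≃* G ⧸ O := MulEquiv.ofBijective πP ⟨hπP, hsurj⟩
    have hcycR : ∀ (C : Subgroup (G ⧸ O)), IsCyclic C → ∀ R : Subgroup G, IsPGroup 2 R →
        (∀ x ∈ R, π x ∈ C) → IsCyclic R := fun C hCc R hR hRC => by
      refine isCyclic_of_injective (MonoidHom.mk' (fun x : R => (⟨π (x : G), hRC x x.2⟩ : C))
        fun a b => Subtype.ext (map_mul π (a : G) (b : G))) ((injective_iff_map_eq_one _).2 fun x hx => ?_)
      exact Subtype.ext (hinj R hR x x.2 (congrArg Subtype.val hx))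
    rcases fpf_isCyclic_or_quaternion ρ hfpf hcard (P : Subgroup G) P.isPGroup' with hc | ⟨-, m, hm, ⟨e⟩⟩
    · haveI : IsCyclic (G ⧸ O) := isCyclic_of_surjective eP eP.surjective
      exact ⟨1, fun R hR _ => hcycR ⊤ inferInstance R hR fun _ _ => trivial⟩
    · let C : Subgroup (G ⧸ O) := Subgroup.zpowers (eP (e.symm (QuaternionGroup.a 1)))
      have hCidx : C.index = 2 := by
        have h1 := C.card_mul_index
        rw [Nat.card_zpowers, MulEquiv.orderOf_eq, MulEquiv.orderOf_eq, QuaternionGroup.orderOf_a_one,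
          ← Nat.card_congr (e.symm.trans eP).toEquiv, Nat.card_eq_fintype_card, QuaternionGroup.card] at h1
        have : 0 < 2 ^ m := Nat.two_pow_pos m
        have h2 : 2 * 2 ^ m * C.index = 2 * 2 ^ m * 2 := by rw [h1]; ring
        exact Nat.eq_of_mul_eq_mul_left (by omega) h2
      haveI : C.Normal := Subgroup.normal_of_index_eq_two hCidx
      obtain ⟨⟨s, hs, hs2⟩⟩ : ∃ _ : (s : Equiv.Perm (Fin 4)) ×' (s * s = 1) ×' (s ≠ 1), True :=
        ⟨⟨Equiv.swap 0 1, Equiv.swap_mul_self 0 1, by decide⟩, trivial⟩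
      have hiff : ∀ a b : G ⧸ O, (a * b ∈ C ↔ (a ∈ C ↔ b ∈ C)) :=
        fun a b => Subgroup.mul_mem_iff_of_index_two hCidx
      let g : G ⧸ O →* Equiv.Perm (Fin 4) :=
        { toFun := fun x => if x ∈ C then 1 else s
          map_one' := if_pos C.one_mem
          map_mul' := fun a b => by
            have := hiff a b
            by_cases ha : a ∈ C <;> by_cases hb : b ∈ C <;> simp_all }
      refine ⟨g.comp π, fun R hR hRk => hcycR C inferInstance R hR fun x hx => ?_⟩
      by_contra h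
      have := hRk hx
      simp [MonoidHom.mem_ker, g, h, hs2] at this
  rcases fpf_isCyclic_or_quaternion ρ hfpf hcard Q hQp with hc | ⟨-, m, hm, ⟨e⟩⟩
  · haveI := hc
    exact caseA (TwoGroups.isPGroup_mulAut_congr eQ (TwoGroups.isPGroup_mulAut_of_isCyclic hQp))
  rcases eq_or_lt_of_le hm with rfl | hm2
  swap
  · exact caseA (TwoGroups.isPGroup_mulAut_congr (e.symm.trans eQ)
      (TwoGroups.isPGroup_mulAut_quaternion hm2))
  let e8 : Qb ≃* Q8 := eQ.symm.trans e
  refine ⟨autHom.comp ((MulAut.congr e8).toMonoidHom.comp (ψ.comp π)), fun R hR hRk => ?_⟩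
  have hψ1 : ∀ x ∈ R, π x ∈ Subgroup.centralizer (Qb : Set (G ⧸ O)) := fun x hx => by
    refine hψ _ ((MulAut.congr e8).injective (autHom_injective ?_))
    rw [map_one, map_one]
    exact MonoidHom.mem_ker.1 (hRk hx)
  have hmem : ∀ x ∈ R, π x ∈ Qb := fun x hx => hC (hψ1 x hx)
  let F : R →* Q8 := MonoidHom.mk' (fun x => e8 ⟨π (x : G), hmem x x.2⟩) fun a b => by
    rw [← map_mul]; exact congrArg e8 (Subtype.ext (map_mul π (a : G) (b : G)))
  have hF : Function.Injective F := (injective_iff_map_eq_one F).2 fun x hx => by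
    have h1 : (⟨π (x : G), hmem x x.2⟩ : Qb) = 1 := e8.injective (by rw [map_one]; exact hx)
    exact Subtype.ext (hinj R hR x x.2 (congrArg Subtype.val h1))
  have hFz : ∀ x, F x ∈ Subgroup.zpowers (QuaternionGroup.a 2 : Q8) := by
    intro x
    rcases center_q8 (F x) (fun y => by
      obtain ⟨y, rfl⟩ := e8.surjective y
      show e8 y * e8 _ = e8 _ * e8 y
      rw [← map_mul, ← map_mul]
      exact congrArg e8 (Subtype.ext (Subgroup.mem_centralizer_iff.1 (hψ1 x x.2) y y.2))) with h | h <;>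
      rw [h]
    · exact Subgroup.one_mem _
    · exact Subgroup.mem_zpowers _
  exact isCyclic_of_injective (F.codRestrict _ hFz) fun a b e => hF (congrArg Subtype.val e)

/-- The kernel is a Z-group. -/
theorem isZGroup_ker (f : G →* Equiv.Perm (Fin 4))
    (hf : ∀ R : Subgroup G, IsPGroup 2 R → R ≤ f.ker → IsCyclic R) : IsZGroup f.ker := by
  refine ⟨fun p hp P => ?_⟩
  haveI : Fact p.Prime := ⟨hp⟩
  have e := (P : Subgroup f.ker).equivMapOfInjective f.ker.subtype f.ker.subtype_injective
  have hR : IsPGroup p ((P : Subgroup f.ker).map f.ker.subtype) := P.isPGroup'.map _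
  suffices IsCyclic ((P : Subgroup f.ker).map f.ker.subtype : Subgroup G) from
    isCyclic_of_surjective e.symm e.symm.surjective
  rcases fpf_isCyclic_or_quaternion ρ hfpf (Nat.cast_ne_zero.2 Nat.card_pos.ne') _ hR with
    h | ⟨rfl, -⟩
  · exact h
  · exact hf _ hR (Subgroup.map_subtype_le _)

/-- Structure of a Z-group inside: generators and relations. -/
theorem exists_generators (H : Subgroup G) [IsZGroup H] :
    ∃ (x y : H) (n m r : ℕ), 0 < n ∧ 0 < m ∧ Nat.Coprime (r - 1) m ∧ Nat.Coprime n m ∧ 1 ≤ r ∧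
      r ^ (n / ∏ p ∈ n.primeFactors, p) % m = 1 % m ∧
      x ^ n = 1 ∧ y ^ m = 1 ∧ x⁻¹ * y * x = y ^ r ∧ Nat.card H = n * m ∧
      Subgroup.closure ({x, y} : Set H) = ⊤ := by
  obtain ⟨C, hC⟩ := Subgroup.exists_right_complement'_of_coprime
    (IsZGroup.coprime_commutator_index (G := H))
  have hCc : IsCyclic C := by
    have e := hC.symm.QuotientMulEquiv
    haveI : IsCyclic (H ⧸ commutator H) := (inferInstance : IsCyclic (Abelianization H))
    exact isCyclic_of_surjective e e.surjective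
  obtain ⟨⟨x, hxC⟩, hx⟩ := hCc.exists_generator
  obtain ⟨⟨y, hyN⟩, hy⟩ := (IsZGroup.isCyclic_commutator (G := H)).exists_generator
  have hyz : Subgroup.zpowers y = commutator H :=
    le_antisymm (Subgroup.zpowers_le.2 hyN) fun z hz => by
      obtain ⟨k, hk⟩ := hy ⟨z, hz⟩; exact ⟨k, congrArg Subtype.val hk⟩
  have hxz : Subgroup.zpowers x = C :=
    le_antisymm (Subgroup.zpowers_le.2 hxC) fun z hz => by
      obtain ⟨k, hk⟩ := hx ⟨z, hz⟩; exact ⟨k, congrArg Subtype.val hk⟩
  set n := orderOf x with hn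
  set m := orderOf y with hm
  have hn0 : 0 < n := orderOf_pos x
  have hm0 : 0 < m := orderOf_pos y
  have hnC : Nat.card C = n := by rw [← hxz, Nat.card_zpowers]
  have hmN : Nat.card (commutator H) = m := by rw [← hyz, Nat.card_zpowers]
  have hcop : Nat.Coprime n m := by
    have := IsZGroup.coprime_commutator_index (G := H)
    rw [hC.symm.index_eq_card, hnC, hmN] at this
    exact this.symm
  obtain ⟨r₀, hr₀⟩ : ∃ r₀ : ℕ, x⁻¹ * y * x = y ^ r₀ := by
    have h1 : x⁻¹ * y * x ∈ Subgroup.zpowers y := by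
      rw [hyz]
      have := (Subgroup.Normal.conj_mem (inferInstance : (commutator H).Normal) y hyN x⁻¹)
      rwa [inv_inv] at this
    rw [← mem_powers_iff_mem_zpowers] at h1
    exact ⟨h1.choose, h1.choose_spec.symm⟩
  set r := r₀ + m with hr
  have hrel : x⁻¹ * y * x = y ^ r := by rw [hr₀, hr, pow_add, pow_orderOf_eq_one, mul_one]
  have hr1 : 1 ≤ r := by omega
  have hgen : Subgroup.closure ({x, y} : Set H) = ⊤ := by
    refine eq_top_iff.2 ?_
    rw [← hC.sup_eq_top, ← hyz, ← hxz]
    exact sup_le (Subgroup.zpowers_le.2 (Subgroup.subset_closure (by simp)))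
      (Subgroup.zpowers_le.2 (Subgroup.subset_closure (by simp)))
  have hcoprime : Nat.Coprime (r - 1) m := by
    set w := y ^ (r - 1) with hw
    have hwy : Subgroup.zpowers w ≤ Subgroup.zpowers y := Subgroup.zpowers_le.2 ⟨((r - 1 : ℕ) : ℤ), zpow_natCast y _⟩
    haveI : (Subgroup.zpowers w).Normal := by
      refine ⟨fun z hz g => ?_⟩
      obtain ⟨i, rfl⟩ := hz
      have h1 : g * y * g⁻¹ ∈ Subgroup.zpowers y := by
        rw [hyz]; exact Subgroup.Normal.conj_mem inferInstance y hyN g
      obtain ⟨j, hj⟩ := Subgroup.mem_zpowers_iff.1 h1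
      refine ⟨j * i, ?_⟩
      simp only
      rw [hw, ← conj_zpow, ← conj_pow, ← hj]
      simp only [← zpow_natCast, ← zpow_mul]
      congr 1; ring
    have hle : commutator H ≤ Subgroup.zpowers w := by
      let q := QuotientGroup.mk' (Subgroup.zpowers w)
      have hxy : q x * q y = q y * q x := by
        rw [← map_mul, ← map_mul]
        refine ((QuotientGroup.mk'_eq_mk' _).2 ⟨w, Subgroup.mem_zpowers w, ?_⟩)
        calc x * y * w = x * y ^ r := by
              rw [hw, mul_assoc, ← pow_succ', Nat.sub_add_cancel hr1]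
          _ = y * x := by rw [← hrel]; group
      have hcl : (Subgroup.closure ({x, y} : Set H)).map q = ⊤ := by
        rw [hgen, ← MonoidHom.range_eq_map, MonoidHom.range_eq_top]
        exact QuotientGroup.mk'_surjective _
      rw [MonoidHom.map_closure, Set.image_pair] at hcl
      have hcomm : ∀ a b : H ⧸ Subgroup.zpowers w, a * b = b * a := by
        have hle2 : Subgroup.closure ({q x, q y} : Set (H ⧸ Subgroup.zpowers w)) ≤
            Subgroup.center _ := by
          rw [Subgroup.closure_le]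
          intro z hz
          rw [SetLike.mem_coe, Subgroup.mem_center_iff]
          intro g
          have hg : g ∈ Subgroup.closure ({q x, q y} : Set (H ⧸ Subgroup.zpowers w)) := hcl ▸ trivial
          induction hg using Subgroup.closure_induction with
          | mem u hu =>
            rcases hz with rfl | hz <;> rcases hu with rfl | hu
            · rfl
            · rw [Set.mem_singleton_iff.1 hu, hxy]
            · rw [Set.mem_singleton_iff.1 hz, hxy]
            · rw [Set.mem_singleton_iff.1 hz, Set.mem_singleton_iff.1 hu]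
          | one => simp
          | mul u v _ _ hu hv =>
            exact ((show Commute u z from hu).mul_left hv).eq
          | inv u _ hu => exact ((show Commute u z from hu).inv_left).eq
        intro a b
        exact (Subgroup.mem_center_iff.1 (hle2 (hcl ▸ trivial : b ∈ _)) a)
      rw [commutator_def, Subgroup.commutator_le]
      intro a _ b _
      rw [← QuotientGroup.eq_one_iff (N := Subgroup.zpowers w)]
      show q ⁅a, b⁆ = 1
      rw [map_commutatorElement, commutatorElement_eq_one_iff_mul_comm]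
      exact hcomm _ _
    have h3 : y ∈ Subgroup.zpowers w := hle hyN
    have h4 : orderOf w = m := by
      rw [hm, ← Nat.card_zpowers, ← Nat.card_zpowers,
        le_antisymm hwy (Subgroup.zpowers_le.2 h3)]
    rw [hw, orderOf_pow] at h4
    rw [Nat.coprime_iff_gcd_eq_one, Nat.gcd_comm]
    exact ((Nat.div_eq_self).1 h4).resolve_left hm0.ne'
  have hconj : ∀ i : ℕ, (x ^ i)⁻¹ * y * x ^ i = y ^ r ^ i := by
    intro i
    induction i with
    | zero => simp
    | succ i ih =>
      calc (x ^ (i + 1))⁻¹ * y * x ^ (i + 1) = x⁻¹ * ((x ^ i)⁻¹ * y * x ^ i) * x := by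
            rw [pow_succ]; group
        _ = (x⁻¹ * y * x) ^ r ^ i := by
            rw [ih]; conv_rhs => rw [show x⁻¹ * y * x = x⁻¹ * y * x⁻¹⁻¹ by rw [inv_inv], conj_pow, inv_inv]
        _ = y ^ r ^ (i + 1) := by rw [hrel, ← pow_mul, pow_succ']
  -- elements of prime order in `⟨x⟩` centralise `y`
  have hprime : ∀ p ∈ n.primeFactors, x ^ (n / p) * y = y * x ^ (n / p) := by
    intro p hp
    obtain ⟨hpp, hpn, -⟩ := Nat.mem_primeFactors.1 hp
    haveI : Fact p.Prime := ⟨hpp⟩
    set a := x ^ (n / p) with ha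
    have hap : orderOf a = p := by
      rw [ha, orderOf_pow, ← hn, Nat.gcd_eq_right (Nat.div_dvd_of_dvd hpn),
        Nat.div_div_self hpn hn0.ne']
    set s := r ^ (n / p) with hs
    have has : a⁻¹ * y * a = y ^ s := hconj _
    have hsp : (s : ZMod m) ^ p = 1 := by
      have h1 : y ^ r ^ n = y ^ 1 := by
        rw [← hconj n, hn, pow_orderOf_eq_one]; simp
      rw [pow_eq_pow_iff_modEq, ← hm, ← ZMod.natCast_eq_natCast_iff] at h1
      rw [hs, Nat.cast_pow, ← pow_mul, Nat.div_mul_cancel hpn]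
      simpa using h1
    have hq : ∀ q ∈ m.primeFactors, (q : ℕ) ∣ (s + (m - 1)) := by
      intro q hq
      obtain ⟨hqp, hqm, -⟩ := Nat.mem_primeFactors.1 hq
      haveI : Fact q.Prime := ⟨hqp⟩
      set b := y ^ (m / q) with hb
      have hbq : orderOf b = q := by
        rw [hb, orderOf_pow, ← hm, Nat.gcd_eq_right (Nat.div_dvd_of_dvd hqm),
          Nat.div_div_self hqm hm0.ne']
      have hbs : a⁻¹ * b * a = b ^ s := by
        calc a⁻¹ * b * a = (a⁻¹ * y * a⁻¹⁻¹) ^ (m / q) := by rw [conj_pow, inv_inv, hb]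
          _ = b ^ s := by rw [inv_inv, has, hb, ← pow_mul, ← pow_mul, mul_comm]
      have hcomm : (a⁻¹ : G) * (b : G) = (b : G) * (a⁻¹ : G) := by
        refine comm_of_prime ρ hfpf (p := p) (q := q) ?_ ?_ ?_
        · rw [orderOf_inv, Subgroup.orderOf_coe, hap]
        · rw [Subgroup.orderOf_coe, hbq]
        · rw [inv_inv]
          refine ⟨(s : ℤ), ?_⟩
          simp only [zpow_natCast]
          exact (congrArg Subtype.val hbs).symm
      have h1 : b ^ s = b ^ 1 := by
        rw [← hbs, pow_one]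
        apply Subtype.ext
        show (a⁻¹ : G) * b * a = b
        rw [hcomm, mul_assoc, inv_mul_cancel, mul_one]
      rw [pow_eq_pow_iff_modEq, hbq, ← ZMod.natCast_eq_natCast_iff] at h1
      rw [← ZMod.natCast_eq_zero_iff, Nat.cast_add, h1, ← Nat.cast_add,
        show 1 + (m - 1) = m by omega, ZMod.natCast_eq_zero_iff]
      exact hqm
    haveI : NeZero m := ⟨hm0.ne'⟩
    have hs1 : (s : ZMod m) = 1 := by
      have h1 : (∑ i ∈ Finset.range p, (s : ZMod m) ^ i) * ((s : ZMod m) - 1) = 0 := by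
        rw [geom_sum_mul, hsp, sub_self]
      have hu : IsUnit (∑ i ∈ Finset.range p, (s : ZMod m) ^ i) := by
        rw [← ZMod.natCast_zmod_val (∑ i ∈ Finset.range p, (s : ZMod m) ^ i), ZMod.isUnit_iff_coprime]
        refine Nat.coprime_of_dvd fun q hqp hq1 hqm => ?_
        haveI : Fact q.Prime := ⟨hqp⟩
        have hqs := hq q (Nat.mem_primeFactors.2 ⟨hqp, hqm, hm0.ne'⟩)
        rw [← ZMod.natCast_eq_zero_iff, Nat.cast_add] at hqs
        have hm1 : ((m - 1 : ℕ) : ZMod q) = -1 := by
          rw [eq_neg_iff_add_eq_zero]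
          have e : ((m - 1 + 1 : ℕ) : ZMod q) = 0 := by
            rw [Nat.sub_add_cancel hm0, ZMod.natCast_eq_zero_iff]
            exact hqm
          rw [Nat.cast_add, Nat.cast_one] at e
          exact e
        rw [hm1, ← sub_eq_add_neg, sub_eq_zero] at hqs
        have h5 := congrArg (ZMod.castHom hqm (ZMod q))
          (ZMod.natCast_zmod_val (∑ i ∈ Finset.range p, (s : ZMod m) ^ i))
        rw [map_natCast, (ZMod.natCast_eq_zero_iff _ _).2 hq1, map_sum] at h5
        simp only [map_pow, map_natCast, hqs, one_pow, Finset.sum_const, Finset.card_range, nsmul_one] at h5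
        have h6 : q ∣ p := (ZMod.natCast_eq_zero_iff _ _).1 h5.symm
        exact hqp.one_lt.ne' (Nat.eq_one_of_dvd_coprimes hcop (h6.trans hpn) hqm)
      exact sub_eq_zero.1 (hu.mul_right_eq_zero.1 h1)
    have h2 : y ^ s = y ^ 1 := by
      rw [pow_eq_pow_iff_modEq, ← hm, ← ZMod.natCast_eq_natCast_iff, hs1, Nat.cast_one]
    rw [h2, pow_one, mul_assoc, inv_mul_eq_iff_eq_mul] at has
    exact has.symm
  have hpow : r ^ (n / ∏ p ∈ n.primeFactors, p) % m = 1 % m := by
    set n' := ∏ p ∈ n.primeFactors, p with hn'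
    have hn'n : n' ∣ n := Nat.prod_primeFactors_dvd n
    set c := x ^ (n / n') with hc
    have hn'0 : n' ≠ 0 := fun e => hn0.ne' (by rwa [e, zero_dvd_iff] at hn'n)
    -- the set of exponents centralising `y`
    have hcy : c * y = y * c := by
      let E : AddSubgroup ℤ :=
        { carrier := {i | Commute (x ^ i) y}
          zero_mem' := by simp
          add_mem' := fun {a b} ha hb => by show Commute _ y; rw [zpow_add]; exact ha.mul_left hb
          neg_mem' := fun {a} ha => by show Commute _ y; rw [zpow_neg]; exact ha.inv_left }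
      suffices ((n / n' : ℕ) : ℤ) ∈ E by
        have h : Commute (x ^ ((n / n' : ℕ) : ℤ)) y := this
        rw [zpow_natCast] at h; exact h.eq
      obtain ⟨d, hd⟩ := Int.subgroup_cyclic E
      rw [hd, AddSubgroup.mem_closure_singleton]
      have hdvd : ∀ p ∈ n.primeFactors, d.natAbs ∣ n / p := by
        intro p hp
        have : ((n / p : ℕ) : ℤ) ∈ E := by
          show Commute _ y; rw [zpow_natCast]; exact hprime p hp
        rw [hd, AddSubgroup.mem_closure_singleton] at this
        obtain ⟨i, hi⟩ := this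
        have := congrArg Int.natAbs hi
        rw [smul_eq_mul, Int.natAbs_mul, Int.natAbs_natCast] at this
        exact ⟨i.natAbs, by rw [← this, mul_comm]⟩
      have hnE : (n : ℤ) ∈ E := by
        show Commute _ y; rw [zpow_natCast, hn, pow_orderOf_eq_one]; exact Commute.one_left y
      rw [hd, AddSubgroup.mem_closure_singleton] at hnE
      obtain ⟨i, hi⟩ := hnE
      have hdn : d.natAbs ∣ n := ⟨i.natAbs, by
        have := congrArg Int.natAbs hi
        rw [smul_eq_mul, Int.natAbs_mul, Int.natAbs_natCast] at this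
        rw [← this, mul_comm]⟩
      obtain ⟨e, he⟩ := hdn
      have hpe : ∀ p ∈ n.primeFactors, p ∣ e := by
        intro p hp
        obtain ⟨hpp, hpn, -⟩ := Nat.mem_primeFactors.1 hp
        obtain ⟨j, hj⟩ := hdvd p hp
        have h1 : d.natAbs * (j * p) = d.natAbs * e := by
          rw [← mul_assoc, ← hj, Nat.div_mul_cancel hpn, he]
        have hd0 : 0 < d.natAbs := Nat.pos_of_ne_zero fun e0 => hn0.ne' (by rw [he, e0, zero_mul])
        exact ⟨j, by rw [← Nat.eq_of_mul_eq_mul_left hd0 h1, mul_comm]⟩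
      obtain ⟨j, hj⟩ : n' ∣ e := Finset.prod_primes_dvd e
        (fun p hp => (Nat.prime_of_mem_primeFactors hp).prime) hpe
      have hfin : n / n' = d.natAbs * j := by
        rw [he, hj, mul_left_comm, Nat.mul_div_cancel_left _ (Nat.pos_of_ne_zero hn'0)]
      refine ⟨(j : ℤ) * Int.sign d, ?_⟩
      rw [smul_eq_mul, hfin, mul_assoc, Int.sign_mul_self_eq_natAbs, Nat.cast_mul, mul_comm]
    have h1 : y ^ r ^ (n / n') = y ^ 1 := by
      rw [← hconj, pow_one, mul_assoc, ← hcy, ← mul_assoc, inv_mul_cancel, one_mul]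
    rw [pow_eq_pow_iff_modEq, ← hm] at h1
    exact h1
  exact ⟨x, y, n, m, r, hn0, hm0, hcoprime, hcop, hr1, hpow, pow_orderOf_eq_one x, pow_orderOf_eq_one y,
    hrel, by rw [← hC.card_mul_card, hmN, hnC, mul_comm], hgen⟩

end Rep

/-- The presentation. -/
theorem presentation_iso {H : Type*} [Group H] [Finite H] (x y : H) (n m r : ℕ) (hn : 0 < n) (hm : 0 < m)
    (hxn : x ^ n = 1) (hym : y ^ m = 1) (hrel : x⁻¹ * y * x = y ^ r) (hcard : Nat.card H = n * m)
    (hgen : Subgroup.closure ({x, y} : Set H) = ⊤) :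
    Nonempty (H ≃* PresentedGroup
      ({FreeGroup.of (0 : Fin 2) ^ n, FreeGroup.of (1 : Fin 2) ^ m,
        (FreeGroup.of (0 : Fin 2))⁻¹ * FreeGroup.of 1 * FreeGroup.of 0 * (FreeGroup.of (1 : Fin 2) ^ r)⁻¹} :
        Set (FreeGroup (Fin 2)))) := by
  set rels : Set (FreeGroup (Fin 2)) := {FreeGroup.of (0 : Fin 2) ^ n, FreeGroup.of (1 : Fin 2) ^ m,
        (FreeGroup.of (0 : Fin 2))⁻¹ * FreeGroup.of 1 * FreeGroup.of 0 * (FreeGroup.of (1 : Fin 2) ^ r)⁻¹}
    with hrels
  let P := PresentedGroup rels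
  let φ : P →* H := PresentedGroup.toGroup (f := ![x, y]) (rels := rels) (by
    intro w hw
    rcases hw with rfl | rfl | rfl
    · simp [hxn]
    · simp [hym]
    · simp [hrel])
  let X : P := PresentedGroup.of 0
  let Y : P := PresentedGroup.of 1
  have hrelP : ∀ w ∈ rels, PresentedGroup.mk rels w = 1 := fun w hw =>
    PresentedGroup.one_of_mem hw
  have hX : X ^ n = 1 := by
    have := hrelP _ (Set.mem_insert _ _)
    rwa [map_pow] at this
  have hY : Y ^ m = 1 := by
    have := hrelP _ (Set.mem_insert_of_mem _ (Set.mem_insert _ _))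
    rwa [map_pow] at this
  have hXY : Y * X = X * Y ^ r := by
    have h1 := hrelP _ (Set.mem_insert_of_mem _ (Set.mem_insert_of_mem _ (Set.mem_singleton _)))
    simp only [map_mul, map_inv, map_pow] at h1
    have h2 : X⁻¹ * Y * X = Y ^ r := mul_inv_eq_one.1 h1
    rw [← h2]; group
  have hj : ∀ j, Y ^ j * X = X * Y ^ (r * j) := by
    intro j
    induction j with
    | zero => simp
    | succ j ih => rw [pow_succ, mul_assoc, hXY, ← mul_assoc, ih, mul_assoc, ← pow_add]; rfl
  have hi : ∀ i j, Y ^ j * X ^ i = X ^ i * Y ^ (r ^ i * j) := by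
    intro i
    induction i with
    | zero => simp
    | succ i ih =>
      intro j
      rw [pow_succ, ← mul_assoc, ih, mul_assoc, hj, ← mul_assoc]
      congr 2
      ring
  let T : Subgroup P :=
    { carrier := {g | ∃ i j : ℕ, g = X ^ i * Y ^ j}
      one_mem' := ⟨0, 0, by simp⟩
      mul_mem' := by
        rintro a b ⟨i, j, rfl⟩ ⟨i', j', rfl⟩
        refine ⟨i + i', r ^ i' * j + j', ?_⟩
        rw [pow_add, pow_add, mul_assoc, ← mul_assoc (Y ^ j), hi]
        simp [mul_assoc]
      inv_mem' := by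
        rintro a ⟨i, j, rfl⟩
        refine ⟨i * (n - 1), r ^ (i * (n - 1)) * (j * (m - 1)), ?_⟩
        rw [← hi]
        refine inv_eq_of_mul_eq_one_right ?_
        rw [mul_assoc, ← mul_assoc (Y ^ j), ← pow_add, show j + j * (m - 1) = m * j by
            conv_rhs => rw [show m = (m - 1) + 1 by omega]
            ring,
          pow_mul, hY, one_pow, one_mul, ← pow_add, show i + i * (n - 1) = n * i by
            conv_rhs => rw [show n = (n - 1) + 1 by omega]
            ring,
          pow_mul, hX, one_pow] }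
  have hT : T = ⊤ := by
    refine eq_top_iff.2 ?_
    rw [← PresentedGroup.closure_range_of rels, Subgroup.closure_le]
    rintro _ ⟨i, rfl⟩
    fin_cases i
    · exact ⟨1, 0, by simp [X]⟩
    · exact ⟨0, 1, by simp [Y]⟩
  let s : Fin n × Fin m → P := fun ij => X ^ (ij.1 : ℕ) * Y ^ (ij.2 : ℕ)
  have hs : Function.Surjective s := by
    intro g
    obtain ⟨i, j, rfl⟩ : g ∈ T := hT ▸ trivial
    refine ⟨(⟨i % n, Nat.mod_lt _ hn⟩, ⟨j % m, Nat.mod_lt _ hm⟩), ?_⟩
    show X ^ (i % n) * Y ^ (j % m) = _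
    rw [← pow_eq_pow_mod i hX, ← pow_eq_pow_mod j hY]
  haveI : Finite P := Finite.of_surjective s hs
  have hle : Nat.card P ≤ n * m := by
    have := Nat.card_le_card_of_surjective s hs
    simpa [Nat.card_prod] using this
  have hφ : Function.Surjective φ := by
    rw [← MonoidHom.range_eq_top, eq_top_iff, ← hgen, Subgroup.closure_le]
    rintro w (rfl | rfl)
    · exact ⟨X, (PresentedGroup.toGroup.of ..).trans rfl⟩
    · exact ⟨Y, (PresentedGroup.toGroup.of ..).trans rfl⟩
  have hbij : Function.Bijective φ := (Nat.bijective_iff_surjective_and_card φ).2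
    ⟨hφ, le_antisymm (hcard ▸ hle) (Nat.card_le_card_of_surjective φ hφ)⟩
  exact ⟨(MulEquiv.ofBijective φ hbij).symm⟩

end CfsgLib.Spectrum.FCStructure
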