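import Mathlib
import Cfsg.Agent.Lib.TwoGroups.NormalCyclic
import Cfsg.Agent.Lib.TwoGroups.NormalAbelian

/-!
# Irreducible `p`-groups are imprimitive by a subgroup of index `p`
-/

set_option autoImplicit false

open scoped Classical

namespace CfsgLib.Spectrum.PImprimitive

open CfsgLib.TwoGroups

/-- An element of order `p` outside `⟨z⟩` whose conjugates lie in `⟨z⟩ w`. -/
theorem exists_pair {G : Type*} [Group G] [Finite G] {p : ℕ} [hp : Fact p.Prime] (hG : IsPGroup p G)
    (hn : ¬ NormalAbelianCyclic G) :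
    ∃ z w : G, z ∈ Subgroup.center G ∧ orderOf z = p ∧ w ^ p = 1 ∧ w ∉ Subgroup.zpowers z ∧
      ∀ t : G, ∃ i : ℤ, t * w * t⁻¹ = z ^ i * w := by
  simp only [NormalAbelianCyclic, not_forall] at hn
  obtain ⟨A, hAn, hAc, hAnc⟩ := hn
  haveI := hAn
  have hA1 : A ≠ ⊥ := fun e => hAnc (by rw [e]; infer_instance)
  obtain ⟨z₀, hz₀A, hz₀1, hz₀Z⟩ := exists_mem_center_of_normal hG hA1
  obtain ⟨k, hk⟩ := IsPGroup.iff_orderOf.1 hG z₀
  have hk0 : 0 < k := Nat.pos_of_ne_zero fun e => hz₀1 (by rwa [e, pow_zero, orderOf_eq_one_iff] at hk)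
  set z := z₀ ^ p ^ (k - 1) with hzdef
  have hz : orderOf z = p := by
    rw [hzdef, orderOf_pow, hk, Nat.gcd_eq_right (pow_dvd_pow p (by omega)),
      Nat.pow_div (by omega) hp.out.pos, show k - (k - 1) = 1 by omega, pow_one]
  have hzc : z ∈ Subgroup.center G := Subgroup.pow_mem _ hz₀Z _
  have hzA : z ∈ A := A.pow_mem hz₀A _
  have hcA : ∀ a ∈ A, ∀ b ∈ A, a * b = b * a := fun a ha b hb =>
    congrArg Subtype.val (hAc.is_comm.comm ⟨a, ha⟩ ⟨b, hb⟩)
  let Ω : Subgroup G :=
    { carrier := {a | a ∈ A ∧ a ^ p = 1}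
      one_mem' := ⟨A.one_mem, one_pow _⟩
      mul_mem' := fun {u v} hu hv => ⟨A.mul_mem hu.1 hv.1, by
        rw [(show Commute u v from hcA u hu.1 v hv.1).mul_pow, hu.2, hv.2, one_mul]⟩
      inv_mem' := fun {u} hu => ⟨A.inv_mem hu.1, by rw [inv_pow, hu.2, inv_one]⟩ }
  haveI : Ω.Normal := ⟨fun b hb g => ⟨hAn.conj_mem b hb.1 g, by
    rw [conj_pow, hb.2, mul_one, mul_inv_cancel]⟩⟩
  haveI hZn : (Subgroup.zpowers z).Normal := ⟨fun x hx g => by
    have hxc : x ∈ Subgroup.center G := Subgroup.zpowers_le.2 hzc hx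
    rwa [Subgroup.mem_center_iff.1 hxc g, mul_inv_cancel_right]⟩
  set π := QuotientGroup.mk' (Subgroup.zpowers z)
  have hne : Ω.map π ≠ ⊥ := by
    intro e
    rw [Subgroup.map_eq_bot_iff, QuotientGroup.ker_mk'] at e
    apply hAnc
    letI : CommGroup A := { (inferInstance : Group A) with mul_comm := hAc.is_comm.comm }
    refine isCyclic_of_uniqueOrderP_comm (hG.to_subgroup A) fun a b ha hb => ?_
    have hcyc : ∀ c : A, orderOf c = p → Subgroup.zpowers (c : G) = Subgroup.zpowers z := fun c hc =>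
      Subgroup.eq_of_le_of_card_ge (Subgroup.zpowers_le.2 (e (show (c : G) ∈ Ω from
        ⟨c.2, by rw [← Subgroup.coe_pow, ← hc, pow_orderOf_eq_one]; rfl⟩))) (by
        rw [Nat.card_zpowers, Nat.card_zpowers, Subgroup.orderOf_coe, hc, hz])
    have h1 : (b : G) ∈ Subgroup.zpowers (a : G) := by
      rw [hcyc a ha, ← hcyc b hb]; exact Subgroup.mem_zpowers _
    obtain ⟨i, hi⟩ := h1
    exact ⟨i, Subtype.ext (by simpa using hi)⟩
  haveI : (Ω.map π).Normal := Subgroup.Normal.map inferInstance π (QuotientGroup.mk'_surjective _)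
  obtain ⟨_, ⟨w, hw, rfl⟩, hw1, hwc⟩ := exists_mem_center_of_normal
    (hG.to_quotient (Subgroup.zpowers z)) hne
  refine ⟨z, w, hzc, hz, hw.2, fun h => hw1 ((QuotientGroup.eq_one_iff w).2 h), fun t => ?_⟩
  have h1 : π (t * w * t⁻¹ * w⁻¹) = 1 := by
    rw [map_mul, map_mul, map_mul, map_inv, map_inv, Subgroup.mem_center_iff.1 hwc (π t),
      mul_inv_cancel_right, mul_inv_cancel]
  obtain ⟨i, hi⟩ := Subgroup.mem_zpowers_iff.1 ((QuotientGroup.eq_one_iff _).1 h1)
  exact ⟨i, by rw [hi, inv_mul_cancel_right]⟩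

section Module

variable {k V G : Type*} [Field k] [AddCommGroup V] [Module k V] [Group G] (R : G →* Module.End k V)

/-- The sum over the first `p` powers. -/
def S (p : ℕ) (a : G) : Module.End k V := ∑ j ∈ Finset.range p, R a ^ j

theorem S_fixed {p : ℕ} {a : G} (ha : a ^ p = 1) (v : V) : R a (S R p a v) = S R p a v := by
  have h : R a * S R p a = S R p a := by
    rw [S, Finset.mul_sum]
    simp only [← pow_succ']
    have h4 := Finset.sum_range_succ (fun i => R a ^ i) p
    have h5 : R a ^ p = 1 := by rw [← map_pow, ha, map_one]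
    rw [Finset.sum_range_succ', h5, pow_zero] at h4
    exact add_right_cancel h4
  exact LinearMap.congr_fun h v

theorem S_of_fixed (p : ℕ) {a : G} {v : V} (h : R a v = v) : S R p a v = (p : k) • v := by
  have hj : ∀ j : ℕ, (R a ^ j) v = v := fun j => by
    induction j with
    | zero => rfl
    | succ j ih => rw [pow_succ, Module.End.mul_apply, h, ih]
  rw [S, LinearMap.sum_apply, Finset.sum_congr rfl fun j _ => hj j, Finset.sum_const,
    Finset.card_range, Nat.cast_smul_eq_nsmul]

theorem S_comm (p : ℕ) {a b : G} (h : Commute a b) (v : V) : R b (S R p a v) = S R p a (R b v) := by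
  have : Commute (R b) (S R p a) := Commute.sum_right _ _ _ fun j _ => ((h.symm.map R).pow_right j)
  exact LinearMap.congr_fun this.eq v

/-- The idempotents of a normal non-cyclic subgroup of order `p²`. -/
theorem sum_S_eq {p : ℕ} [hp : Fact p.Prime] {z w : G} (hzw : Commute w z) (hz : orderOf z = p)
    (hfpf : ∀ i : ℕ, ¬ p ∣ i → ∀ v : V, R (z ^ i) v = v → v = 0) (v : V) :
    ∑ i ∈ Finset.range p, S R p (w * z ^ i) v = (p : k) • v := by
  simp only [S, LinearMap.sum_apply]
  rw [Finset.sum_comm, Finset.sum_eq_single 0 ?_ (fun h => absurd (Finset.mem_range.2 hp.out.pos) h)]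
  · simp [Nat.cast_smul_eq_nsmul]
  intro j hj hj0
  have hpj : ¬ p ∣ j := fun h => hj0 (Nat.eq_zero_of_dvd_of_lt h (Finset.mem_range.1 hj))
  have hzj : (z ^ j) ^ p = 1 := by rw [← pow_mul, mul_comm, pow_mul, ← hz, pow_orderOf_eq_one, one_pow]
  calc ∑ i ∈ Finset.range p, (R (w * z ^ i) ^ j) v
      = ∑ i ∈ Finset.range p, R (w ^ j) ((R (z ^ j) ^ i) v) :=
        Finset.sum_congr rfl fun i _ => by
          rw [← map_pow, (hzw.pow_right i).mul_pow, map_mul, Module.End.mul_apply, ← map_pow R,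
            ← pow_mul, ← pow_mul, mul_comm i j]
    _ = R (w ^ j) (S R p (z ^ j) v) := by rw [S, LinearMap.sum_apply, map_sum]
    _ = 0 := by rw [hfpf j hpj _ (S_fixed R hzj v), map_zero]

end Module

/-- The main statement. -/
theorem main (q : ℕ) [Fact q.Prime] {V : Type*} [AddCommGroup V] [Module (ZMod q) V] [Finite V]
    [Nontrivial V] {G : Type*} [Group G] [Finite G] (p : ℕ) [hp : Fact p.Prime] (hG : IsPGroup p G)
    (ρ : G →* (V ≃ₗ[ZMod q] V)) (hρ : Function.Injective ρ)
    (hirr : ∀ W : Submodule (ZMod q) V, (∀ g : G, ∀ w ∈ W, ρ g w ∈ W) → W = ⊥ ∨ W = ⊤)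
    (hn : ¬ NormalAbelianCyclic G) :
    ∃ (H : Subgroup G) (W : Fin p → Submodule (ZMod q) V), H.index = p ∧
      iSup W = ⊤ ∧ iSupIndep W ∧
      (∀ h ∈ H, ∀ i, ∀ w ∈ W i, ρ h w ∈ W i) ∧
      (∀ i, ∃ h ∈ H, h ≠ 1 ∧ ∀ w ∈ W i, ρ h w = w) ∧
      ∀ g : G, g ∉ H → ∃ σ : Equiv.Perm (Fin p), orderOf σ = p ∧
        ∀ i, (W i).map (ρ g : V →ₗ[ZMod q] V) = W (σ i) := by
  haveI : NeZero p := ⟨hp.out.ne_zero⟩
  obtain ⟨z, w, hzc, hz, hwp, hwz, hconj⟩ := exists_pair hG hn
  let R : G →* Module.End (ZMod q) V :=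
    { toFun := fun g => (ρ g : V →ₗ[ZMod q] V)
      map_one' := by rw [map_one]; rfl
      map_mul' := fun a b => by rw [map_mul]; rfl }
  have Rapp : ∀ g v, R g v = ρ g v := fun _ _ => rfl
  have hzp : z ^ p = 1 := by rw [← hz, pow_orderOf_eq_one]
  have hzw : Commute w z := (Subgroup.mem_center_iff.1 hzc w)
  have hfaith : ∀ g : G, (∀ v, ρ g v = v) → g = 1 := fun g h => hρ (by
    rw [map_one]; exact LinearEquiv.ext h)
  -- central elements act without fixed vectors
  have hcentral : ∀ a : G, a ∈ Subgroup.center G → a ≠ 1 → ∀ v : V, ρ a v = v → v = 0 := by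
    intro a ha ha1 v hv
    rcases hirr (LinearMap.ker (R a - 1)) (fun g u hu => by
      rw [LinearMap.mem_ker, LinearMap.sub_apply, sub_eq_zero] at hu ⊢
      show R a (R g u) = R g u
      rw [← Module.End.mul_apply, ← map_mul, ← Subgroup.mem_center_iff.1 ha g, map_mul,
        Module.End.mul_apply]
      exact congrArg (R g) hu) with h | h
    · have : v ∈ LinearMap.ker (R a - 1) := by
        rw [LinearMap.mem_ker, LinearMap.sub_apply, sub_eq_zero]; exact hv
      rwa [h, Submodule.mem_bot] at this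
    · refine absurd (hfaith a fun u => ?_) ha1
      have : u ∈ LinearMap.ker (R a - 1) := h ▸ trivial
      rwa [LinearMap.mem_ker, LinearMap.sub_apply, sub_eq_zero] at this
  have hzi : ∀ i : ℕ, ¬ p ∣ i → ∀ v : V, R (z ^ i) v = v → v = 0 := fun i hi =>
    hcentral _ (Subgroup.pow_mem _ hzc i) fun e => hi (hz ▸ orderOf_dvd_of_pow_eq_one e)
  -- the characteristic is prime to `p`
  have hpq : (p : ZMod q) ≠ 0 := by
    intro h0
    have hqp : q = p := (Nat.prime_dvd_prime_iff_eq Fact.out hp.out).1 ((ZMod.natCast_eq_zero_iff _ _).1 h0)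
    subst hqp
    letI : MulAction G V :=
      { smul := fun g v => ρ g v
        one_smul := fun v => by show ρ 1 v = v; rw [map_one]; rfl
        mul_smul := fun a b v => by show ρ (a * b) v = ρ a (ρ b v); rw [map_mul]; rfl }
    obtain ⟨v₀, hv₀⟩ := exists_ne (0 : V)
    have hord : addOrderOf v₀ = q := addOrderOf_eq_prime (by
      rw [← Nat.cast_smul_eq_nsmul (ZMod q), h0, zero_smul]) hv₀
    obtain ⟨b, hb, hb0⟩ := hG.exists_fixed_point_of_prime_dvd_card_of_fixed_point V
      (hord ▸ addOrderOf_dvd_natCard v₀) (a := (0 : V)) (fun g => map_zero (ρ g))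
    exact hb0 (hcentral z hzc (fun e => hp.out.one_lt.ne' (by rw [← hz, e, orderOf_one])) b (hb z)).symm
  choose c hc using hconj
  have hcu : ∀ i j : ℤ, z ^ i * w = z ^ j * w → (i : ZMod p) = j := fun i j h => by
    have := mul_right_cancel h
    rw [zpow_eq_zpow_iff_modEq, hz, ← ZMod.intCast_eq_intCast_iff] at this
    exact this
  let χ : G →* Multiplicative (ZMod p) :=
    { toFun := fun g => Multiplicative.ofAdd (c g : ZMod p)
      map_one' := by
        rw [← ofAdd_zero]
        congr 1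
        have := hcu (c 1) 0 (by rw [← hc 1]; simp)
        simpa using this
      map_mul' := fun a b => by
        rw [← ofAdd_add]
        congr 1
        have := hcu (c (a * b)) (c a + c b) (by
          rw [← hc (a * b), show a * b * w * (a * b)⁻¹ = a * (b * w * b⁻¹) * a⁻¹ by group, hc b,
            show a * (z ^ c b * w) * a⁻¹ = (a * z ^ c b * a⁻¹) * (a * w * a⁻¹) by group, hc a,
            Subgroup.mem_center_iff.1 (Subgroup.zpow_mem _ hzc (c b)) a, mul_inv_cancel_right,
            ← mul_assoc, ← zpow_add, add_comm])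
        simpa using this }
  -- the eigenspaces
  let E : ZMod p → G := fun i => w * z ^ i.val
  have hEn : ∀ n : ℕ, E (n : ZMod p) = w * z ^ n := fun n => by
    show w * z ^ (n : ZMod p).val = _
    rw [ZMod.val_natCast, ← hz, pow_mod_orderOf]
  have hEp : ∀ i, E i ^ p = 1 := fun i => by
    rw [(hzw.pow_right _).mul_pow, hwp, ← pow_mul, mul_comm, pow_mul, hzp, one_pow, one_mul]
  have hEcomm : ∀ i j, Commute (E i) (E j) := fun i j =>
    ((Commute.refl w).mul_right (hzw.pow_right _)).mul_left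
      ((hzw.symm.pow_left _).mul_right ((Commute.refl z).pow_pow _ _))
  let W' : ZMod p → Submodule (ZMod q) V := fun i => LinearMap.ker (R (E i) - 1)
  have hW : ∀ i v, v ∈ W' i ↔ ρ (E i) v = v := fun i v => by
    rw [LinearMap.mem_ker, LinearMap.sub_apply, sub_eq_zero]; rfl
  have htop : iSup W' = ⊤ := by
    refine eq_top_iff.2 fun v _ => ?_
    have h := sum_S_eq R (w := w) hzw hz hzi v
    have hv : v = (p : ZMod q)⁻¹ • ∑ i ∈ Finset.range p, S R p (w * z ^ i) v := by
      rw [h, smul_smul, inv_mul_cancel₀ hpq, one_smul]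
    rw [hv]
    refine Submodule.smul_mem _ _ (Submodule.sum_mem _ fun i _ => ?_)
    refine Submodule.mem_iSup_of_mem (i : ZMod p) ((hW _ _).2 ?_)
    have h5 := hEp (i : ZMod p)
    rw [hEn] at h5
    rw [hEn]
    exact S_fixed R h5 v
  have hkill : ∀ i j, i ≠ j → ∀ v ∈ W' j, S R p (E i) v = 0 := by
    intro i j hij v hv
    set u := S R p (E i) v
    have h1 : R (E i) u = u := S_fixed R (hEp i) v
    have h2 : R (E j) u = u := by
      rw [S_comm R p (hEcomm i j)]
      exact congrArg _ ((hW j v).1 hv)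
    have e : E j = E i * z ^ (j - i).val := by
      show w * z ^ j.val = w * z ^ i.val * z ^ (j - i).val
      rw [mul_assoc, ← pow_add]
      congr 1
      rw [pow_eq_pow_iff_modEq, hz, ← ZMod.natCast_eq_natCast_iff, Nat.cast_add,
        ZMod.natCast_zmod_val, ZMod.natCast_zmod_val, ZMod.natCast_zmod_val, add_sub_cancel]
    refine hzi (j - i).val (fun hd => hij ?_) u ?_
    · have h0 := Nat.eq_zero_of_dvd_of_lt hd (ZMod.val_lt _)
      rw [ZMod.val_eq_zero, sub_eq_zero] at h0
      exact h0.symm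
    · rw [e, map_mul, Module.End.mul_apply] at h2
      exact (ρ (E i)).injective (h2.trans h1.symm)
  have hindep : iSupIndep W' := by
    intro i
    rw [Submodule.disjoint_def]
    intro v hv hv'
    have h0 : S R p (E i) v = 0 := by
      have : (⨆ (j) (_ : j ≠ i), W' j) ≤ LinearMap.ker (S R p (E i)) :=
        iSup₂_le fun j hj u hu => LinearMap.mem_ker.2 (hkill i j (Ne.symm hj) u hu)
      exact LinearMap.mem_ker.1 (this hv')
    rw [S_of_fixed R p ((hW i v).1 hv), smul_eq_zero] at h0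
    exact h0.resolve_left hpq
  have hmap : ∀ g i, (W' i).map (ρ g : V →ₗ[ZMod q] V) = W' (i + (c g : ZMod p)) := by
    intro g i
    have hgE : g * E i * g⁻¹ = E (i + (c g : ZMod p)) := by
      show g * (w * z ^ i.val) * g⁻¹ = w * z ^ (i + (c g : ZMod p)).val
      rw [show g * (w * z ^ i.val) * g⁻¹ = (g * w * g⁻¹) * (g * z ^ i.val * g⁻¹) by group, hc g,
        Subgroup.mem_center_iff.1 (Subgroup.pow_mem _ hzc _) g, mul_inv_cancel_right,
        ← (hzw.zpow_right (c g)).eq, mul_assoc, ← zpow_natCast, ← zpow_natCast z, ← zpow_add]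
      congr 1
      rw [zpow_eq_zpow_iff_modEq, hz, ← ZMod.intCast_eq_intCast_iff]
      push_cast
      rw [ZMod.natCast_zmod_val, ZMod.natCast_zmod_val, add_comm]
    ext u
    rw [Submodule.mem_map]
    constructor
    · rintro ⟨v, hv, rfl⟩
      rw [hW, ← hgE]
      show R (g * E i * g⁻¹) (R g v) = R g v
      rw [← Module.End.mul_apply, ← map_mul, inv_mul_cancel_right, map_mul, Module.End.mul_apply]
      exact congrArg (R g) ((hW i v).1 hv)
    · intro hu
      refine ⟨R g⁻¹ u, (hW _ _).2 ?_, ?_⟩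
      · show R (E i) (R g⁻¹ u) = R g⁻¹ u
        rw [← Module.End.mul_apply, ← map_mul, show E i * g⁻¹ = g⁻¹ * (g * E i * g⁻¹) by group, hgE,
          map_mul, Module.End.mul_apply]
        exact congrArg (R g⁻¹) ((hW _ u).1 hu)
      · show R g (R g⁻¹ u) = u
        rw [← Module.End.mul_apply, ← map_mul, mul_inv_cancel, map_one, Module.End.one_apply]
  have hnc : χ ≠ 1 := by
    intro h
    have hwc : w ∈ Subgroup.center G := by
      rw [Subgroup.mem_center_iff]
      intro g
      have h1 : (c g : ZMod p) = 0 := congrArg Multiplicative.toAdd (DFunLike.congr_fun h g)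
      have h2 : z ^ c g = 1 := by
        rw [← orderOf_dvd_iff_zpow_eq_one, hz, ← ZMod.intCast_zmod_eq_zero_iff_dvd, h1]
      have h3 := hc g
      rw [h2, one_mul, mul_inv_eq_iff_eq_mul] at h3
      exact h3
    have hbot : ∀ i, W' i = ⊥ := fun i => (Submodule.eq_bot_iff _).2 fun v hv =>
      hcentral (E i) (Subgroup.mul_mem _ hwc (Subgroup.pow_mem _ hzc _))
        (fun e => hwz ⟨-(i.val : ℤ), by
          simp only [zpow_neg, zpow_natCast]; exact (eq_inv_of_mul_eq_one_left e).symm⟩) v ((hW i v).1 hv)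
    have : (⊤ : Submodule (ZMod q) V) = ⊥ := by rw [← htop]; simp [hbot]
    exact not_subsingleton V ((Submodule.subsingleton_iff _).1 (subsingleton_of_top_eq_bot this) : )
  let e : Fin p ≃ ZMod p := (ZMod.finEquiv p).toEquiv
  refine ⟨χ.ker, W' ∘ e, ?_, ?_, hindep.comp e.injective, fun h hh i u hu => ?_, fun i => ?_, fun g hg => ?_⟩
  · rw [Subgroup.index_ker]
    have h1 := χ.range.card_subgroup_dvd_card
    rw [Nat.card_eq_of_bijective _ Multiplicative.toAdd.bijective, Nat.card_zmod] at h1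
    rcases (Nat.dvd_prime hp.out).1 h1 with h2 | h2
    · exact absurd ((MonoidHom.range_eq_bot_iff).1 (Subgroup.eq_bot_of_card_eq _ h2)) hnc
    · exact h2
  · rw [← htop]; exact e.surjective.iSup_comp W'
  · have h0 : (c h : ZMod p) = 0 := congrArg Multiplicative.toAdd (MonoidHom.mem_ker.1 hh)
    have := hmap h (e i)
    rw [h0, add_zero] at this
    show ρ h u ∈ W' (e i)
    rw [← this]
    exact Submodule.mem_map_of_mem hu
  · refine ⟨E (e i), ?_, fun h => hwz ⟨-((e i).val : ℤ), by
        simp only [zpow_neg, zpow_natCast]; exact (eq_inv_of_mul_eq_one_left h).symm⟩,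
      fun u hu => (hW _ u).1 hu⟩
    rw [MonoidHom.mem_ker]
    show Multiplicative.ofAdd (c (E (e i)) : ZMod p) = 1
    rw [← ofAdd_zero]
    congr 1
    have hcm : Commute (E (e i)) w := ((Commute.refl w).mul_left (hzw.symm.pow_left _))
    have := hcu (c (E (e i))) 0 (by rw [← hc, hcm.eq, mul_inv_cancel_right]; simp)
    simpa using this
  · have h0 : (c g : ZMod p) ≠ 0 := fun h => hg (MonoidHom.mem_ker.2 (congrArg Multiplicative.ofAdd h))
    refine ⟨e.symm.permCongr (Equiv.addRight (c g : ZMod p)), orderOf_eq_prime ?_ ?_, fun i => ?_⟩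
    · have h1 : ∀ n : ℕ, (Equiv.addRight (c g : ZMod p)) ^ n = Equiv.addRight ((n : ZMod p) * c g) := by
        intro n
        induction n with
        | zero => ext; simp
        | succ n ih =>
          rw [pow_succ, ih]
          ext x
          simp only [Equiv.Perm.mul_apply, Equiv.coe_addRight]
          push_cast
          ring_nf
      rw [← Equiv.permCongrHom_coe, ← map_pow, h1, ZMod.natCast_self, zero_mul,
        show Equiv.addRight (0 : ZMod p) = 1 by ext; simp, map_one]
    · intro h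
      have := Equiv.congr_fun h (e.symm 0)
      simp at this
      exact h0 this
    · show (W' (e i)).map _ = W' (e _)
      rw [hmap]
      simp

end CfsgLib.Spectrum.PImprimitive
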