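import Mathlib
import Cfsg.Agent.Lib.Spectrum.PGroupImprimitive
import Cfsg.Agent.Lib.HalfTransitive.RegularNormalHalf
import Cfsg.Agent.Lib.HalfTransitive.PGroup
import Cfsg.Agent.Lib.PermGroups.Zassenhaus.Main

/-!
# Half-transitive linear 2-groups
-/

set_option autoImplicit false

set_option linter.unusedSectionVars false

open scoped Classical

namespace CfsgLib.Spectrum.HalfTransP

theorem pow_add_one_eq_two_pow {q a m : ℕ} (hq : Odd q) (hq1 : 1 < q) (ha : 1 ≤ a)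
    (h : q ^ a + 1 = 2 ^ m) : a = 1 := by
  rcases Nat.even_or_odd a with ⟨b, hb⟩ | hodd
  · exfalso
    have h1 : q ^ a % 4 = 1 := by
      rw [hb, pow_add]
      obtain ⟨c, hc⟩ := hq.pow (n := b)
      rw [hc, show (2 * c + 1) * (2 * c + 1) = 4 * (c * c + c) + 1 by ring]
      omega
    have h2 : 1 < q ^ a := Nat.one_lt_pow (by omega) hq1
    rcases m with _ | _ | m
    · simp at h; omega
    · simp at h; omega
    · rw [pow_succ, pow_succ] at h; omega
  · -- the cofactor of `q + 1` is odd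
    let S : ℤ := ∑ i ∈ Finset.range a, (-(q : ℤ)) ^ i
    have hS : S * ((q : ℤ) + 1) = 2 ^ m := by
      have h1 := geom_sum_mul (-(q : ℤ)) a
      rw [hodd.neg_pow] at h1
      have h2 : ((q : ℤ) ^ a + 1) = 2 ^ m := by exact_mod_cast h
      show (∑ i ∈ Finset.range a, (-(q : ℤ)) ^ i) * ((q : ℤ) + 1) = _
      linear_combination h2 - h1
    have hSodd : Odd S := by
      rw [← Int.not_even_iff_odd, ← ZMod.intCast_eq_zero_iff_even]
      have hq' : (q : ZMod 2) = 1 := ZMod.natCast_eq_one_iff_odd.2 hq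
      show ¬ ((∑ i ∈ Finset.range a, (-(q : ℤ)) ^ i : ℤ) : ZMod 2) = 0
      push_cast
      simp only [hq', ZMod.neg_eq_self_mod_two, one_pow, Finset.sum_const, Finset.card_range, nsmul_one]
      rw [ZMod.natCast_eq_one_iff_odd.2 hodd]
      decide
    have h2 : S.natAbs = 1 := by
      have hd : S.natAbs ∣ 2 ^ m := by
        have := congrArg Int.natAbs hS
        rw [Int.natAbs_mul, Int.natAbs_pow] at this
        exact ⟨_, this.symm⟩
      exact Nat.eq_one_of_dvd_coprimes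
        (((Nat.coprime_two_right.2 (Int.natAbs_odd.2 hSodd))).pow_right m) dvd_rfl hd
    have h3 : q ^ a + 1 = q + 1 := by
      have := congrArg Int.natAbs hS
      rw [Int.natAbs_mul, h2, one_mul, Int.natAbs_pow] at this
      rw [h]
      have e : ((q : ℤ) + 1).natAbs = q + 1 := by omega
      rw [e] at this
      simpa using this.symm
    exact Nat.pow_right_injective hq1 (by simpa using h3)

theorem pow_eq_two_pow_add_one {q r j : ℕ} (hq : Odd q) (hq1 : 1 < q) (hr : 1 ≤ r)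
    (h : q ^ r = 2 ^ j + 1) : r = 1 ∨ (q = 3 ∧ r = 2) := by
  rcases Nat.even_or_odd r with ⟨b, hb⟩ | hodd
  · right
    obtain ⟨c, hc⟩ := hq.pow (n := b)
    have hb1 : 1 ≤ b := by omega
    have h0 : 1 ≤ c := by
      have := Nat.one_lt_pow (show b ≠ 0 by omega) hq1
      omega
    have h1 : 4 * (c * (c + 1)) = 2 ^ j := by
      rw [hb, pow_add, hc] at h
      nlinarith
    have hd : ∀ d, d ∣ 2 ^ j → Odd d → d = 1 := fun d hd hdo =>
      Nat.eq_one_of_dvd_coprimes ((Nat.coprime_two_right.2 hdo).pow_right j) dvd_rfl hd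
    have hc1 : c = 1 := by
      rcases Nat.even_or_odd c with he | ho
      · have := hd (c + 1) (h1 ▸ (dvd_mul_left _ _).trans (dvd_mul_left _ _)) he.add_one
        omega
      · exact hd c (h1 ▸ (dvd_mul_right _ _).trans (dvd_mul_left _ _)) ho
    have h3 : q ^ b = 3 := by rw [hc, hc1]; norm_num
    rcases b with _ | _ | b
    · omega
    · exact ⟨by simpa using h3, by omega⟩
    · exfalso
      have : q ^ 2 ≤ q ^ (b + 1 + 1) := Nat.pow_le_pow_right (by omega) (by omega)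
      have : 2 ^ 2 ≤ q ^ 2 := Nat.pow_le_pow_left (by omega) 2
      omega
  · left
    let S : ℤ := ∑ i ∈ Finset.range r, (q : ℤ) ^ i
    have hS : S * ((q : ℤ) - 1) = 2 ^ j := by
      rw [geom_sum_mul]
      have h2 : ((q : ℤ) ^ r) = 2 ^ j + 1 := by exact_mod_cast h
      omega
    have hSodd : Odd S := by
      rw [← Int.not_even_iff_odd, ← ZMod.intCast_eq_zero_iff_even]
      have hq' : (q : ZMod 2) = 1 := ZMod.natCast_eq_one_iff_odd.2 hq
      show ¬ ((∑ i ∈ Finset.range r, (q : ℤ) ^ i : ℤ) : ZMod 2) = 0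
      push_cast
      simp only [hq', ZMod.neg_eq_self_mod_two, one_pow, Finset.sum_const, Finset.card_range, nsmul_one]
      rw [ZMod.natCast_eq_one_iff_odd.2 hodd]
      decide
    have h2 : S.natAbs = 1 := by
      have hd : S.natAbs ∣ 2 ^ j := by
        have := congrArg Int.natAbs hS
        rw [Int.natAbs_mul, Int.natAbs_pow] at this
        exact ⟨_, this.symm⟩
      exact Nat.eq_one_of_dvd_coprimes
        (((Nat.coprime_two_right.2 (Int.natAbs_odd.2 hSodd))).pow_right j) dvd_rfl hd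
    have h3 : q ^ r = q := by
      have := congrArg Int.natAbs hS
      rw [Int.natAbs_mul, h2, one_mul, Int.natAbs_pow] at this
      rw [h]
      have e : ((q : ℤ) - 1).natAbs = q - 1 := by omega
      rw [e] at this
      simp at this
      omega
    exact Nat.pow_right_injective hq1 (by simpa using h3)

/-- Exponents of a power of `x` squaring to one. -/
theorem eq_zpow_of_sq {G : Type*} [Group G] {x w : G} {N : ℕ} (hN : 0 < N) (hx : orderOf x = 2 * N)
    (hw : w ∈ Subgroup.zpowers x) (hw2 : w * w = 1) (hw1 : w ≠ 1) : w = x ^ N := by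
  obtain ⟨a, rfl⟩ := hw
  have h1 : ((2 * N : ℕ) : ℤ) ∣ a + a := by
    rw [← hx, orderOf_dvd_iff_zpow_eq_one, zpow_add]; exact hw2
  obtain ⟨b, hb⟩ := h1
  have hab : a = N * b := by push_cast at hb; linarith
  subst hab
  have hz : (x ^ N) ^ 2 = 1 := by rw [← pow_mul, mul_comm, ← hx, pow_orderOf_eq_one]
  simp only at hw1 ⊢
  rw [zpow_mul, zpow_natCast] at hw1 ⊢
  rcases Int.even_or_odd b with ⟨c, rfl⟩ | ⟨c, rfl⟩
  · exfalso; apply hw1
    rw [← two_mul, zpow_mul, zpow_ofNat, hz, one_zpow]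
  · rw [zpow_add, zpow_one, zpow_mul, zpow_ofNat, hz, one_zpow, one_mul]

section

variable {q : ℕ} [Fact q.Prime] {V : Type*} [AddCommGroup V] [Module (ZMod q) V] [Finite V] [Nontrivial V]
  {G : Type*} [Group G] [Finite G] (ρ : G →* (V ≃ₗ[ZMod q] V)) (hρ : Function.Injective ρ)

/-- The stabiliser of a vector. -/
def stab (v : V) : Subgroup G where
  carrier := {g | ρ g v = v}
  one_mem' := by simp
  mul_mem' := fun {a b} (ha : ρ a v = v) (hb : ρ b v = v) => by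
    show ρ (a * b) v = v
    rw [map_mul, LinearEquiv.mul_apply, hb, ha]
  inv_mem' := fun {a} (ha : ρ a v = v) => by
    show ρ a⁻¹ v = v
    conv_lhs => rw [← ha]
    rw [← LinearEquiv.mul_apply, ← map_mul, inv_mul_cancel, map_one]
    rfl

theorem mem_stab {g : G} {v : V} : g ∈ stab ρ v ↔ ρ g v = v := Iff.rfl

theorem orbit_mul_stab (v : V) :
    Nat.card {u : V | ∃ g : G, ρ g v = u} * Nat.card (stab ρ v) = Nat.card G := by
  letI : MulAction G V :=
    { smul := fun g v => ρ g v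
      one_smul := fun v => by show ρ 1 v = v; rw [map_one]; rfl
      mul_smul := fun a b v => by show ρ (a * b) v = ρ a (ρ b v); rw [map_mul]; rfl }
  rw [← Nat.card_congr (MulAction.orbitProdStabilizerEquivGroup G v), Nat.card_prod]
  rfl

/-- The associated automorphisms of the additive group. -/
def toAut : G →* MulAut (Multiplicative V) where
  toFun g := AddEquiv.toMultiplicative (ρ g).toAddEquiv
  map_one' := MulEquiv.ext fun v => by
    show Multiplicative.ofAdd (ρ 1 v.toAdd) = v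
    rw [map_one]; rfl
  map_mul' a b := MulEquiv.ext fun v => by
    show Multiplicative.ofAdd (ρ (a * b) v.toAdd) = Multiplicative.ofAdd (ρ a (ρ b v.toAdd))
    rw [map_mul]; rfl

variable {c : ℕ} (hc : ∀ v : V, v ≠ 0 → Nat.card (stab ρ v) = c)

include hc in
theorem card_fixer (w : Multiplicative V) (hw : w ≠ 1) :
    Nat.card (HalfTransitive.Auto.fixer (toAut ρ) w) = c := by
  rw [← hc w.toAdd (fun h => hw (Multiplicative.toAdd.injective h))]
  exact Nat.card_congr (Equiv.subtypeEquivRight fun g => Iff.rfl)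

include hρ hc in
theorem irreducible_of_one_lt (hc1 : 1 < c) (W : Submodule (ZMod q) V)
    (hW : ∀ g : G, ∀ w ∈ W, ρ g w ∈ W) : W = ⊥ ∨ W = ⊤ := by
  rcases HalfTransitive.Auto.invariant_normal (toAut ρ) (card_fixer ρ hc) hc1
    (fun a b h => hρ (LinearEquiv.ext fun v => congrArg Multiplicative.toAdd
      (MulEquiv.congr_fun h (Multiplicative.ofAdd v))))
    (AddSubgroup.toSubgroup W.toAddSubgroup) (fun g m hm => hW g _ hm) with h | h
  · left
    rw [Submodule.eq_bot_iff]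
    intro w hw
    have : Multiplicative.ofAdd w ∈ AddSubgroup.toSubgroup W.toAddSubgroup := hw
    rw [h, Subgroup.mem_bot] at this
    exact Multiplicative.ofAdd.injective this
  · right
    rw [Submodule.eq_top_iff']
    intro w
    have : Multiplicative.ofAdd w ∈ AddSubgroup.toSubgroup W.toAddSubgroup := h ▸ Subgroup.mem_top _
    exact this

include hρ hc in
/-- Semiregular 2-groups are cyclic or quaternion. -/
theorem semiregular_case {p : ℕ} [Fact p.Prime] (hG : IsPGroup p G) (hc1 : c = 1) :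
    (IsCyclic G ∨ ∃ n : ℕ, Nonempty (G ≃* QuaternionGroup n)) ∧ ∀ v : V, v ≠ 0 → ∀ g : G, ρ g v = v → g = 1 := by
  have hfpf : ∀ v : V, v ≠ 0 → ∀ g : G, ρ g v = v → g = 1 := fun v hv g hg =>
    (Subgroup.eq_bot_iff_forall _).1 (Subgroup.eq_bot_of_card_eq (stab ρ v) ((hc v hv).trans hc1)) g hg
  refine ⟨?_, hfpf⟩
  obtain ⟨k, hk, hcop⟩ := HalfTransitive.Auto.exists_orbit_size (c := c) (toAut ρ) (card_fixer ρ hc)
  rw [hc1, mul_one] at hk
  have hcard : (Nat.card G : ZMod q) ≠ 0 := by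
    rw [ne_eq, ZMod.natCast_eq_zero_iff]
    intro hd
    obtain ⟨v, hv⟩ := exists_ne (0 : V)
    have hq : q ∣ Nat.card V := by
      have : addOrderOf v = q := addOrderOf_eq_prime (by
        rw [← Nat.cast_smul_eq_nsmul (ZMod q), ZMod.natCast_self, zero_smul]) hv
      exact this ▸ addOrderOf_dvd_natCard v
    rw [show Nat.card (Multiplicative V) = Nat.card V from Nat.card_congr Multiplicative.toAdd] at hcop
    exact (Fact.out : q.Prime).one_lt.ne' (Nat.eq_one_of_dvd_coprimes hcop (hk ▸ hd) hq)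
  let R : G →* Module.End (ZMod q) V :=
    { toFun := fun g => (ρ g : V →ₗ[ZMod q] V)
      map_one' := by rw [map_one]; rfl
      map_mul' := fun a b => by rw [map_mul]; rfl }
  rcases PermGroups.fpf_isCyclic_or_quaternion R
    (fun g hg v hv => by_contra fun h => hg (hfpf v h g hv)) hcard ⊤ (hG.to_subgroup ⊤) with h | ⟨-, m, -, ⟨e⟩⟩
  · haveI := h
    exact Or.inl (isCyclic_of_surjective Subgroup.topEquiv Subgroup.topEquiv.surjective)
  · exact Or.inr ⟨_, ⟨Subgroup.topEquiv.symm.trans e⟩⟩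

include hρ hc in
/-- Groups with a cyclic fixed-point-free subgroup of index two. -/
theorem cyclicMax_case (hq2 : q ≠ 2) (hc1 : 1 < c) {x y : G} {k r s : ℕ} (hk : 2 ≤ k)
    (hx : orderOf x = 2 ^ k) (hcard : Nat.card G = 2 * 2 ^ k) (hy : y ∉ Subgroup.zpowers x)
    (hy2 : y * y = 1) (hr : y * x * y⁻¹ = x ^ r)
    (hs : r = 2 ^ k - 1 ∧ s = k ∨ 3 ≤ k ∧ r = 2 ^ (k - 1) - 1 ∧ s + 1 = k) :
    Nat.card V = q ^ 2 ∧ q = 2 ^ s - 1 := by
  obtain ⟨k', rfl⟩ : ∃ k', k = k' + 2 := ⟨k - 2, by omega⟩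
  have hr' : (r + 1 = 4 * 2 ^ k' ∧ s = k' + 2) ∨ (1 ≤ k' ∧ r + 1 = 2 * 2 ^ k' ∧ s = k' + 1) := by
    have := Nat.two_pow_pos k'
    rcases hs with ⟨h1, h2⟩ | ⟨h0, h1, h2⟩
    · left; rw [pow_add] at h1; omega
    · right; rw [show k' + 2 - 1 = k' + 1 by omega, pow_add] at h1; omega
  set N := 2 * 2 ^ k' with hN
  have hN0 : 0 < N := by have := Nat.two_pow_pos k'; omega
  have hx2 : orderOf x = 2 * N := by rw [hx, hN, pow_add]; ring
  set z := x ^ N with hz
  have hz1 : z ≠ 1 := fun e => by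
    have := Nat.le_of_dvd hN0 (orderOf_dvd_of_pow_eq_one e); omega
  have hzz : z * z = 1 := by rw [hz, ← pow_add, ← two_mul, ← hx2, pow_orderOf_eq_one]
  have hidx : (Subgroup.zpowers x).index = 2 := by
    have := (Subgroup.zpowers x).card_mul_index
    rw [Nat.card_zpowers, hcard, hx] at this
    have h2 : 0 < 2 ^ (k' + 2) := Nat.two_pow_pos _
    exact Nat.eq_of_mul_eq_mul_left h2 (this.trans (mul_comm _ _))
  have hmul : ∀ a b : G, a * b ∈ Subgroup.zpowers x ↔ (a ∈ Subgroup.zpowers x ↔ b ∈ Subgroup.zpowers x) :=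
    fun a b => Subgroup.mul_mem_iff_of_index_two hidx
  have hrodd : Odd r := by
    rcases hr' with ⟨h, -⟩ | ⟨-, h, -⟩ <;> exact ⟨_, (by omega : r = 2 * ((r - 1) / 2) + 1)⟩
  have hzc : ∀ g : G, g * z = z * g := by
    have hyz : y * z * y⁻¹ = z := by
      rw [hz, ← conj_pow, hr, ← pow_mul]
      obtain ⟨d, hd⟩ := hrodd
      rw [hd, show (2 * d + 1) * N = 2 * N * d + N by ring, pow_add, pow_mul, ← hx2, pow_orderOf_eq_one,
        one_pow, one_mul]
    intro g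
    by_cases hg : g ∈ Subgroup.zpowers x
    · obtain ⟨i, rfl⟩ := hg
      exact (((Commute.refl x).zpow_left i).pow_right N).eq
    · obtain ⟨i, hi⟩ := Subgroup.mem_zpowers_iff.1 ((hmul g y⁻¹).2 ⟨fun h => absurd h hg, fun h => absurd ((inv_mem_iff).1 h) hy⟩)
      rw [show g = x ^ i * y by rw [hi, inv_mul_cancel_right]]
      have hcx : Commute (x ^ i) z := ((Commute.refl x).zpow_left i).pow_right N
      exact (hcx.mul_left (mul_inv_eq_iff_eq_mul.1 hyz : Commute y z)).eq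
  have hirr := irreducible_of_one_lt ρ hρ hc hc1
  have hfx : ∀ (g : G) v, ρ g (ρ g⁻¹ v) = v := fun g v => by
    rw [← LinearEquiv.mul_apply, ← map_mul, mul_inv_cancel, map_one]; rfl
  have hzneg : ∀ v, ρ z v = -v := by
    intro v
    have hzfix : ∀ u, ρ z u = u → u = 0 := by
      intro u hu
      rcases hirr (LinearMap.eqLocus (ρ z : V →ₗ[ZMod q] V) LinearMap.id) (fun g w hw => by
        show ρ z (ρ g w) = ρ g w
        rw [← LinearEquiv.mul_apply, ← map_mul, ← hzc g, map_mul, LinearEquiv.mul_apply]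
        exact congrArg (ρ g) hw) with h | h
      · have : u ∈ LinearMap.eqLocus (ρ z : V →ₗ[ZMod q] V) LinearMap.id := hu
        rwa [h, Submodule.mem_bot] at this
      · exfalso; apply hz1; apply hρ
        rw [map_one]
        refine LinearEquiv.ext fun w => ?_
        have : w ∈ LinearMap.eqLocus (ρ z : V →ₗ[ZMod q] V) LinearMap.id := h ▸ trivial
        exact this
    have := hzfix (ρ z v + v) (by
      rw [map_add, ← LinearEquiv.mul_apply, ← map_mul, hzz, map_one, add_comm]; rfl)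
    exact eq_neg_of_add_eq_zero_left this
  have h2v : ∀ v : V, v + v = 0 → v = 0 := fun v hv => by
    rw [← two_smul (ZMod q)] at hv
    refine (smul_eq_zero.1 hv).resolve_left fun h0 => hq2 ?_
    exact (Nat.prime_dvd_prime_iff_eq Fact.out Nat.prime_two).1
      ((ZMod.natCast_eq_zero_iff 2 q).1 (by exact_mod_cast h0))
  have hXfree : ∀ g ∈ Subgroup.zpowers x, ∀ v : V, v ≠ 0 → ρ g v = v → g = 1 := by
    intro g hg v hv hgv
    by_contra hg1
    obtain ⟨e, he⟩ : ∃ e, orderOf g = 2 ^ e := by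
      have h1 : orderOf g ∣ 2 ^ (k' + 2) := by
        rw [← hx, ← Nat.card_zpowers x, ← Subgroup.orderOf_mk g hg]; exact orderOf_dvd_natCard _
      obtain ⟨e, -, he⟩ := (Nat.dvd_prime_pow Nat.prime_two).1 h1
      exact ⟨e, he⟩
    obtain ⟨e, rfl⟩ : ∃ e', e = e' + 1 := ⟨e - 1, by
      rcases e with _ | e
      · rw [pow_zero, orderOf_eq_one_iff] at he; exact absurd he hg1
      · rfl⟩
    have hw : g ^ 2 ^ e = x ^ N := by
      refine eq_zpow_of_sq hN0 hx2 (Subgroup.pow_mem _ hg _) ?_ ?_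
      · rw [← pow_add, show 2 ^ e + 2 ^ e = 2 ^ (e + 1) by ring, ← he, pow_orderOf_eq_one]
      · intro h
        have := Nat.le_of_dvd (Nat.two_pow_pos e) (he ▸ orderOf_dvd_of_pow_eq_one h)
        have h9 := Nat.two_pow_pos e
        have h10 : 2 ^ (e + 1) = 2 ^ e * 2 := pow_succ 2 e
        omega
    have h1 : ρ (g ^ 2 ^ e) v = v := (Subgroup.pow_mem (stab ρ v) hgv _ :)
    rw [hw, hzneg, neg_eq_iff_add_eq_zero] at h1
    exact hv (h2v v h1)
  -- each non-zero vector is fixed by exactly one involution outside `⟨x⟩`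
  let T := {g : G // g ∉ Subgroup.zpowers x ∧ g * g = 1}
  have huniq : ∀ v : V, v ≠ 0 → ∃ t : T, ρ t.1 v = v ∧ ∀ t' : T, ρ t'.1 v = v → t' = t := by
    intro v hv
    obtain ⟨⟨g, hg⟩, hg1⟩ : ∃ g : stab ρ v, g ≠ 1 := by
      haveI : Nontrivial (stab ρ v) := Finite.one_lt_card_iff_nontrivial.1 (by rw [hc v hv]; exact hc1)
      exact exists_ne 1
    have hgX : g ∉ Subgroup.zpowers x := fun h => hg1 (Subtype.ext (hXfree g h v hv hg))
    have hgg : g * g = 1 := hXfree _ ((hmul g g).2 Iff.rfl) v hv ((stab ρ v).mul_mem hg hg)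
    refine ⟨⟨g, hgX, hgg⟩, hg, fun t ht => Subtype.ext ?_⟩
    have h1 := hXfree _ ((hmul g t.1).2 ⟨fun h => absurd h hgX, fun h => absurd h t.2.1⟩) v hv
      ((stab ρ v).mul_mem hg ht)
    show t.1 = g
    calc t.1 = g * g * t.1 := by rw [hgg, one_mul]
      _ = g := by rw [mul_assoc, h1, mul_one]
  choose τ hτ hτu using huniq
  -- conjugation of `t` to `t z`
  have htz : ∀ t : T, ∃ g : G, g * t.1 * g⁻¹ = t.1 * z := by
    intro t
    refine ⟨x ^ 2 ^ k', ?_⟩
    obtain ⟨i, hi⟩ := Subgroup.mem_zpowers_iff.1 ((hmul t.1 y⁻¹).2 ⟨fun h => absurd h t.2.1, fun h => absurd ((inv_mem_iff).1 h) hy⟩)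
    rw [show t.1 = x ^ i * y by rw [hi, inv_mul_cancel_right], mul_assoc (x ^ i) y z,
      mul_inv_eq_iff_eq_mul, mul_assoc (x ^ i) (y * z)]
    rw [← mul_assoc (x ^ 2 ^ k'), ((Commute.refl x).pow_left _ |>.zpow_right i).eq, mul_assoc]
    congr 1
    have hyx : y * x ^ 2 ^ k' = x ^ (r * 2 ^ k') * y := by
      rw [pow_mul, ← hr, conj_pow]; group
    rw [mul_assoc y z, ← hzc (x ^ 2 ^ k'), ← mul_assoc y, hyx, mul_assoc, hzc y, ← mul_assoc]
    congr 1
    rw [hz, ← pow_add, pow_eq_pow_iff_modEq, hx2, hN]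
    -- exponents
    rcases hr' with ⟨h, -⟩ | ⟨h0, h, -⟩
    · obtain ⟨d, rfl⟩ : ∃ d, r = d := ⟨r, rfl⟩
      have h' : r = 4 * 2 ^ k' - 1 := by omega
      rw [Nat.modEq_iff_dvd]
      refine ⟨((2 : ℤ) ^ k'), ?_⟩
      have : (r : ℤ) = 4 * 2 ^ k' - 1 := by exact_mod_cast (by omega : (r : ℤ) = 4 * ((2 ^ k' : ℕ) : ℤ) - 1)
      push_cast
      rw [this]; ring
    · obtain ⟨e, he⟩ : ∃ e, k' = e + 1 := ⟨k' - 1, by omega⟩
      rw [Nat.modEq_iff_dvd]
      refine ⟨((2 : ℤ) ^ e), ?_⟩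
      have : (r : ℤ) = 2 * 2 ^ k' - 1 := by exact_mod_cast (by omega : (r : ℤ) = 2 * ((2 ^ k' : ℕ) : ℤ) - 1)
      push_cast
      rw [this, he, pow_succ]; ring
  let Fx : G → Submodule (ZMod q) V := fun g => LinearMap.eqLocus (ρ g : V →ₗ[ZMod q] V) LinearMap.id
  have hFx : ∀ g v, v ∈ Fx g ↔ ρ g v = v := fun g v => Iff.rfl
  have hVF : ∀ t : T, Nat.card V = Nat.card (Fx t.1) * Nat.card (Fx t.1) := by
    intro t
    obtain ⟨g, hg⟩ := htz t
    have hiff : ∀ u, u ∈ Fx t.1 ↔ ρ g u ∈ Fx (t.1 * z) := by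
      intro u
      rw [hFx, hFx, ← hg, ← LinearEquiv.mul_apply, ← map_mul, inv_mul_cancel_right, map_mul,
        LinearEquiv.mul_apply, EmbeddingLike.apply_eq_iff_eq]
    have e2 : Nat.card (Fx t.1) = Nat.card (Fx (t.1 * z)) :=
      Nat.card_congr (Equiv.subtypeEquiv (ρ g).toEquiv hiff)
    have hneg : ∀ u, ρ (t.1 * z) u = -ρ t.1 u := fun u => by
      rw [map_mul, LinearEquiv.mul_apply, hzneg, map_neg]
    have hbij : Function.Bijective (fun p : Fx t.1 × Fx (t.1 * z) => (p.1 : V) + p.2) := by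
      constructor
      · rintro ⟨⟨a, ha⟩, ⟨b, hb⟩⟩ ⟨⟨a', ha'⟩, ⟨b', hb'⟩⟩ h
        simp only at h
        rw [hFx, hneg] at hb hb'
        rw [hFx] at ha ha'
        have h1 := congrArg (ρ t.1) h
        rw [map_add, map_add, ha, ha', show ρ t.1 b = -b from neg_eq_iff_eq_neg.1 hb,
          show ρ t.1 b' = -b' from neg_eq_iff_eq_neg.1 hb'] at h1
        have h2 : (a - a') + (a - a') = 0 := by
          linear_combination (norm := abel) h + h1
        have h3 := sub_eq_zero.1 (h2v _ h2)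
        subst h3
        have h4 : b = b' := add_left_cancel h
        subst h4
        rfl
      · intro v
        obtain ⟨w, hw⟩ : ∃ w : V, w + w = v := ⟨(2 : ZMod q)⁻¹ • v, by
          rw [← two_smul (ZMod q) ((2 : ZMod q)⁻¹ • v), smul_smul, mul_inv_cancel₀, one_smul]
          intro h0
          exact hq2 ((Nat.prime_dvd_prime_iff_eq Fact.out Nat.prime_two).1
            ((ZMod.natCast_eq_zero_iff 2 q).1 (by exact_mod_cast h0)))⟩
        have htt : ∀ u, ρ t.1 (ρ t.1 u) = u := fun u => by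
          rw [← LinearEquiv.mul_apply, ← map_mul, t.2.2, map_one]; rfl
        refine ⟨(⟨w + ρ t.1 w, ?_⟩, ⟨w - ρ t.1 w, ?_⟩), ?_⟩
        · rw [hFx, map_add, htt, add_comm]
        · rw [hFx, hneg, map_sub, htt, neg_sub]
        · show w + ρ t.1 w + (w - ρ t.1 w) = v
          rw [← hw]; abel
    rw [← Nat.card_congr (Equiv.ofBijective _ hbij), Nat.card_prod, ← e2]
  obtain ⟨v₁, hv₁⟩ := exists_ne (0 : V)
  set F := Nat.card (Fx (τ v₁ hv₁).1) with hF
  have hFall : ∀ t : T, Nat.card (Fx t.1) = F := fun t =>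
    Nat.mul_self_inj.1 ((hVF t).symm.trans (hVF _))
  have hsub : ∀ t : T, Nat.card {v : V // v ≠ 0 ∧ ρ t.1 v = v} + 1 = F := by
    intro t
    rw [← hFall t]
    have := Set.ncard_sdiff_singleton_add_one (s := (Fx t.1 : Set V)) (a := 0) (Fx t.1).zero_mem
    rw [← Nat.card_coe_set_eq, ← Nat.card_coe_set_eq] at this
    rw [← show Nat.card ((Fx t.1 : Set V) \ {0} : Set V) = Nat.card {v : V // v ≠ 0 ∧ ρ t.1 v = v} from
      Nat.card_congr (Equiv.subtypeEquivRight fun v => by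
        simp only [Set.mem_sdiff, SetLike.mem_coe, hFx, Set.mem_singleton_iff, and_comm])]
    exact this
  haveI := Fintype.ofFinite T
  have hcount : Nat.card {v : V // v ≠ 0} = Nat.card T * (F - 1) := by
    have e : {v : V // v ≠ 0} ≃ Σ t : T, {v : V // v ≠ 0 ∧ ρ t.1 v = v} :=
      { toFun := fun v => ⟨τ v.1 v.2, v.1, v.2, hτ v.1 v.2⟩
        invFun := fun p => ⟨p.2.1, p.2.2.1⟩
        left_inv := fun v => rfl
        right_inv := fun ⟨t, v, hv, htv⟩ => by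
          have := hτu v hv t htv
          subst this
          rfl }
    rw [Nat.card_congr e, Nat.card_sigma, Finset.sum_congr rfl fun t _ => show _ = F - 1 by
      have := hsub t; omega, Finset.sum_const, Finset.card_univ, Nat.card_eq_fintype_card, smul_eq_mul]
  have hV1 : Nat.card {v : V // v ≠ 0} + 1 = F * F := by
    have := Set.ncard_sdiff_singleton_add_one (s := (Set.univ : Set V)) (a := 0) trivial
    rw [Set.ncard_univ, ← Nat.card_coe_set_eq, ← hFall (τ v₁ hv₁), ← hVF] at *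
    rw [← this]
    congr 1
    exact Nat.card_congr (Equiv.subtypeEquivRight fun v => by simp)
  -- counting the involutions
  have hT : Nat.card T = 2 ^ s := by
    have hsq : ∀ i : ℕ, (x ^ i * y) * (x ^ i * y) = x ^ (i * (r + 1)) := fun i => by
      calc (x ^ i * y) * (x ^ i * y) = x ^ i * (y * x ^ i * y⁻¹) * (y * y) := by group
        _ = x ^ (i * (r + 1)) := by
          rw [hy2, mul_one, ← conj_pow, hr, ← pow_mul, ← pow_add]
          congr 1; ring
    have hnot : ∀ i : ℕ, x ^ i * y ∉ Subgroup.zpowers x := fun i h =>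
      hy (((hmul _ _).1 h).1 (Subgroup.pow_mem _ (Subgroup.mem_zpowers x) i))
    have e : T ≃ {i : Fin (2 * N) // 2 * N ∣ (i : ℕ) * (r + 1)} := (Equiv.ofBijective
      (fun i : {i : Fin (2 * N) // 2 * N ∣ (i : ℕ) * (r + 1)} =>
        (⟨x ^ (i.1 : ℕ) * y, hnot _, by rw [hsq, ← orderOf_dvd_iff_pow_eq_one, hx2]; exact i.2⟩ : T))
      ⟨fun i j h => by
        have h1 : x ^ (i.1 : ℕ) * y = x ^ (j.1 : ℕ) * y := congrArg Subtype.val h
        have h2 := pow_eq_pow_iff_modEq.1 (mul_right_cancel h1)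
        rw [hx2, Nat.ModEq, Nat.mod_eq_of_lt i.1.2, Nat.mod_eq_of_lt j.1.2] at h2
        exact Subtype.ext (Fin.ext h2), fun t => by
        have h1 := (hmul t.1 y⁻¹).2 ⟨fun h => absurd h t.2.1, fun h => absurd ((inv_mem_iff).1 h) hy⟩
        rw [mem_zpowers_iff_mem_range_orderOf, Finset.mem_image] at h1
        obtain ⟨i, hi, he⟩ := h1
        rw [Finset.mem_range, hx2] at hi
        have ht : x ^ i * y = t.1 := by rw [he, inv_mul_cancel_right]
        refine ⟨⟨⟨i, hi⟩, ?_⟩, Subtype.ext ht⟩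
        show 2 * N ∣ i * (r + 1)
        rw [← hx2, orderOf_dvd_iff_pow_eq_one, ← hsq, ht, t.2.2]⟩).symm
    rw [Nat.card_congr e]
    rcases hr' with ⟨h, hs'⟩ | ⟨-, h, hs'⟩
    · rw [Nat.card_congr (Equiv.subtypeUnivEquiv fun i => by
        rw [h, show 4 * 2 ^ k' = 2 * N by omega]; exact dvd_mul_left _ _), Nat.card_eq_fintype_card,
        Fintype.card_fin, hs', hN, pow_add]
      ring
    · have e2 : {i : Fin (2 * N) // 2 * N ∣ (i : ℕ) * (r + 1)} ≃ Fin N :=
        { toFun := fun i => ⟨(i.1 : ℕ) / 2, by have := i.1.2; omega⟩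
          invFun := fun j => ⟨⟨2 * (j : ℕ), by have := j.2; omega⟩, by
            show 2 * N ∣ 2 * (j : ℕ) * (r + 1)
            rw [h]; exact ⟨j, by ring⟩⟩
          left_inv := fun i => by
            have h2 : 2 * N ∣ (i.1 : ℕ) * N :=
              i.2.trans (dvd_of_eq (congrArg (fun w => (i.1 : ℕ) * w) h))
            have : 2 ∣ (i.1 : ℕ) := Nat.dvd_of_mul_dvd_mul_right hN0 h2
            exact Subtype.ext (Fin.ext (by show 2 * ((i.1 : ℕ) / 2) = i.1; omega))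
          right_inv := fun j => Fin.ext (by show 2 * (j : ℕ) / 2 = j; omega) }
      rw [Nat.card_congr e2, Nat.card_eq_fintype_card, Fintype.card_fin, hs', hN, pow_succ]
      ring
  obtain ⟨a, ha⟩ : ∃ a, F = q ^ a := by
    refine ⟨Module.finrank (ZMod q) (Fx (τ v₁ hv₁).1), ?_⟩
    rw [hF, Module.natCard_eq_pow_finrank (K := ZMod q), Nat.card_zmod]
  have hF2 : 2 ≤ F := by
    have := hsub (τ v₁ hv₁)
    have : 0 < Nat.card {v : V // v ≠ 0 ∧ ρ (τ v₁ hv₁).1 v = v} :=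
      Nat.card_pos_iff.2 ⟨⟨⟨v₁, hv₁, hτ v₁ hv₁⟩⟩, inferInstance⟩
    omega
  have hkey : F + 1 = 2 ^ s := by
    rw [hcount, hT] at hV1
    obtain ⟨F', hF'⟩ : ∃ F', F = F' + 1 := ⟨F - 1, by omega⟩
    rw [hF'] at hV1 ⊢
    simp only [Nat.add_sub_cancel] at hV1
    refine Nat.eq_of_mul_eq_mul_right (show 0 < F' by omega) ?_
    nlinarith
  have ha1 : a = 1 := pow_add_one_eq_two_pow ((Fact.out : q.Prime).odd_of_ne_two hq2)
    (Fact.out : q.Prime).one_lt (Nat.pos_of_ne_zero fun e => by rw [ha, e, pow_zero] at hF2; omega)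
    (ha ▸ hkey)
  rw [ha, ha1, pow_one] at hkey
  refine ⟨?_, by omega⟩
  rw [hVF (τ v₁ hv₁), hFall, ha, ha1, pow_one, sq]

include hρ hc in
/-- The imprimitive case. -/
theorem imprimitive_case (hq2 : q ≠ 2) (hc1 : 1 < c) (hG : IsPGroup 2 G)
    (hn : ¬ TwoGroups.NormalAbelianCyclic G) :
    (Nat.card V = q ^ 2 ∧ (∃ m : ℕ, q = 2 ^ m + 1) ∧
      ∃ e : V ≃ₗ[ZMod q] (Fin 2 → ZMod q), ∀ f : (Fin 2 → ZMod q) ≃ₗ[ZMod q] (Fin 2 → ZMod q),
        (∃ g : G, f = e.symm.trans ((ρ g).trans e)) ↔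
        ∃ a s : ZMod q, a ≠ 0 ∧ (s = 1 ∨ s = -1) ∧
          ((∀ v, f v = ![a * v 0, s * a⁻¹ * v 1]) ∨ (∀ v, f v = ![s * a⁻¹ * v 1, a * v 0]))) ∨
    (Nat.card V = 81 ∧ q = 3) := by
  haveI : Fact (Nat.Prime 2) := ⟨Nat.prime_two⟩
  have hirr := irreducible_of_one_lt ρ hρ hc hc1
  obtain ⟨H, W, hidx, htop, hind, hHinv, hker, hout⟩ :=
    PImprimitive.main q 2 hG ρ hρ hirr hn
  have hmulH : ∀ {a b : G}, a * b ∈ H ↔ (a ∈ H ↔ b ∈ H) := Subgroup.mul_mem_iff_of_index_two hidx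
  have hAB : ∀ v, v ∈ W 0 → v ∈ W 1 → v = 0 := fun v h0 h1 =>
    Submodule.disjoint_def.1 (hind.pairwiseDisjoint (by decide : (0 : Fin 2) ≠ 1)) v h0 h1
  have hsplit : ∀ v : V, ∃ a ∈ W 0, ∃ b ∈ W 1, a + b = v := by
    intro v
    have : v ∈ W 0 ⊔ W 1 := by
      have h : iSup W = W 0 ⊔ W 1 := le_antisymm
        (iSup_le (Fin.forall_fin_two.2 ⟨le_sup_left, le_sup_right⟩))
        (sup_le (le_iSup W 0) (le_iSup W 1))
      rw [← h, htop]; trivial
    exact Submodule.mem_sup.1 this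
  have hswap : ∀ g, g ∉ H → ∀ i, ∀ w ∈ W i, ρ g w ∈ W (Equiv.swap (0 : Fin 2) 1 i) := by
    intro g hg i w hw
    obtain ⟨σ, hσ, hmap⟩ := hout g hg
    have hσ' : σ = Equiv.swap 0 1 := by
      have : ∀ τ : Equiv.Perm (Fin 2), τ = 1 ∨ τ = Equiv.swap 0 1 := by decide
      rcases this σ with h | h
      · exfalso; rw [h, orderOf_one] at hσ; norm_num at hσ
      · exact h
    rw [← hσ', ← hmap i]
    exact Submodule.mem_map_of_mem hw
  have hsw0 : ∀ g, g ∉ H → ∀ w ∈ W 0, ρ g w ∈ W 1 := fun g hg w hw => by simpa using hswap g hg 0 w hw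
  have hsw1 : ∀ g, g ∉ H → ∀ w ∈ W 1, ρ g w ∈ W 0 := fun g hg w hw => by simpa using hswap g hg 1 w hw
  have hmm : ∀ (g h : G) v, ρ (g * h) v = ρ g (ρ h v) := fun g h v => by rw [map_mul]; rfl
  have hinv : ∀ (g : G) v, ρ g⁻¹ (ρ g v) = v := fun g v => by
    rw [← hmm, inv_mul_cancel, map_one]; rfl
  have hfaith : ∀ g : G, (∀ v ∈ W 0, ρ g v = v) → (∀ v ∈ W 1, ρ g v = v) → g = 1 := by
    intro g h0 h1
    apply hρ
    rw [map_one]
    refine LinearEquiv.ext fun v => ?_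
    obtain ⟨a, ha, b, hb, rfl⟩ := hsplit v
    rw [map_add, h0 a ha, h1 b hb]; rfl
  have h2v : ∀ v : V, v + v = 0 → v = 0 := fun v hv => by
    rw [← two_smul (ZMod q)] at hv
    refine (smul_eq_zero.1 hv).resolve_left fun h0 => hq2 ?_
    exact (Nat.prime_dvd_prime_iff_eq Fact.out Nat.prime_two).1
      ((ZMod.natCast_eq_zero_iff 2 q).1 (by exact_mod_cast h0))
  have huniq : ∀ a ∈ W 0, ∀ b ∈ W 1, ∀ a' ∈ W 0, ∀ b' ∈ W 1, a + b = a' + b' → a = a' ∧ b = b' := by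
    intro a ha b hb a' ha' b' hb' h
    have e : a - a' = b' - b := by rw [sub_eq_sub_iff_add_eq_add, h, add_comm]
    have h0 := hAB _ ((W 0).sub_mem ha ha') (e ▸ (W 1).sub_mem hb' hb)
    have h2 := sub_eq_zero.1 h0
    subst h2
    exact ⟨rfl, add_left_cancel h⟩
  obtain ⟨g₀', hg₀'⟩ : ∃ g, g ∉ H := by
    by_contra h; push Not at h
    have : H = ⊤ := eq_top_iff.2 fun g _ => h g
    rw [this, Subgroup.index_top] at hidx; omega
  have hne : ∀ i, W i ≠ ⊥ := by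
    have key : W 0 = ⊥ → W 1 = ⊥ := fun h0 => (Submodule.eq_bot_iff _).2 fun w hw => by
      have := hsw1 g₀' hg₀' w hw
      rw [h0, Submodule.mem_bot] at this
      exact (LinearEquiv.map_eq_zero_iff _).1 this
    have key' : W 1 = ⊥ → W 0 = ⊥ := fun h1 => (Submodule.eq_bot_iff _).2 fun w hw => by
      have := hsw0 g₀' hg₀' w hw
      rw [h1, Submodule.mem_bot] at this
      exact (LinearEquiv.map_eq_zero_iff _).1 this
    have : ¬ (W 0 = ⊥ ∧ W 1 = ⊥) := by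
      rintro ⟨h0, h1⟩
      obtain ⟨v, hv⟩ := exists_ne (0 : V)
      obtain ⟨a, ha, b, hb, rfl⟩ := hsplit v
      rw [h0, Submodule.mem_bot] at ha
      rw [h1, Submodule.mem_bot] at hb
      exact hv (by rw [ha, hb, add_zero])
    exact Fin.forall_fin_two.2 ⟨fun h => this ⟨h, key h⟩, fun h => this ⟨key' h, h⟩⟩
  obtain ⟨a₀, ha₀, ha₀0⟩ := Submodule.exists_mem_ne_zero_of_ne_bot (hne 0)
  obtain ⟨b₀, hb₀, hb₀0⟩ := Submodule.exists_mem_ne_zero_of_ne_bot (hne 1)
  have hstabH : ∀ a ∈ W 0, a ≠ 0 → stab ρ a ≤ H := fun a ha ha0 g hg => by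
    by_contra h
    have h1 := hsw0 g h a ha
    rw [show ρ g a = a from hg] at h1
    exact ha0 (hAB a ha h1)
  -- comparing the stabilisers of `a` and `a + b`
  have hcomp : ∀ a ∈ W 0, a ≠ 0 → ∀ b ∈ W 1, b ≠ 0 → ∀ h₁ ∈ stab ρ a, ∀ h₂ ∈ stab ρ a,
      ρ h₁ b ≠ b → ρ h₂ b ≠ b → ρ (h₁ * h₂) b = b := by
    intro a ha ha0 b hb hb0 h₁ hh₁ h₂ hh₂ n₁ n₂
    haveI : H.Normal := Subgroup.normal_of_index_eq_two hidx
    have hab : a + b ≠ 0 := fun h => hb0 (hAB b (by
      rw [eq_neg_of_add_eq_zero_right h]; exact (W 0).neg_mem ha) hb)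
    let K : Subgroup G := stab ρ a ⊓ stab ρ b
    have hK : K = stab ρ (a + b) ⊓ H := by
      ext g
      constructor
      · intro hg
        refine ⟨?_, hstabH a ha ha0 hg.1⟩
        show ρ g (a + b) = a + b
        rw [map_add, show ρ g a = a from hg.1, show ρ g b = b from hg.2]
      · intro hg
        have h := huniq _ (hHinv g hg.2 0 a ha) _ (hHinv g hg.2 1 b hb) a ha b hb
          (by rw [← map_add]; exact hg.1)
        exact ⟨h.1, h.2⟩
    have h2 : K.relIndex (stab ρ a) ≤ 2 := by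
      have e1 : K.relIndex (stab ρ a) * Nat.card K = c := by
        rw [← hc a ha0, ← Nat.card_congr (Subgroup.subgroupOfEquivOfLe (inf_le_left : K ≤ _)).toEquiv,
          Subgroup.relIndex, mul_comm, Subgroup.card_mul_index]
      have e2 : c ≤ Nat.card K * 2 := by
        rw [← hc (a + b) hab, hK]
        have hle : (H.subgroupOf (stab ρ (a + b))).index ≤ 2 := by
          have : (H.subgroupOf (stab ρ (a + b))).index ∣ 2 := hidx ▸ Subgroup.relIndex_dvd_index_of_normal _ _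
          exact Nat.le_of_dvd (by norm_num) this
        have := (H.subgroupOf (stab ρ (a + b))).card_mul_index
        rw [← Nat.card_congr (Subgroup.subgroupOfEquivOfLe (inf_le_left : stab ρ (a + b) ⊓ H ≤ _)).toEquiv,
          Subgroup.inf_subgroupOf_left]
        calc Nat.card (stab ρ (a + b)) = _ := this.symm
          _ ≤ _ := Nat.mul_le_mul_left _ hle
      have : 0 < Nat.card K := Nat.card_pos
      nlinarith
    have hmem : ∀ g (hg : g ∈ stab ρ a), (⟨g, hg⟩ : stab ρ a) ∈ K.subgroupOf (stab ρ a) ↔ ρ g b = b := fun g hg =>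
      ⟨fun h => h.2, fun h => ⟨hg, h⟩⟩
    have hne1 : K.relIndex (stab ρ a) ≠ 1 := by
      intro h
      have := Subgroup.relIndex_eq_one.1 h hh₁
      exact n₁ this.2
    have h0 : K.relIndex (stab ρ a) ≠ 0 := Subgroup.index_ne_zero_of_finite
    have hi2 : (K.subgroupOf (stab ρ a)).index = 2 := by
      show K.relIndex (stab ρ a) = 2
      omega
    exact (hmem _ ((stab ρ a).mul_mem hh₁ hh₂)).1 ((Subgroup.mul_mem_iff_of_index_two hi2
      (a := ⟨h₁, hh₁⟩) (b := ⟨h₂, hh₂⟩)).2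
      ⟨fun h => absurd ((hmem _ _).1 h) n₁, fun h => absurd ((hmem _ _).1 h) n₂⟩)
  -- the involution `t`
  obtain ⟨t, htH, htA, htB⟩ : ∃ t ∈ H, (∀ w ∈ W 0, ρ t w = w) ∧ ∀ w ∈ W 1, ρ t w = -w := by
    obtain ⟨h₁, hh₁, hh₁1, hh₁fix⟩ := hker 0
    haveI hHn : H.Normal := Subgroup.normal_of_index_eq_two hidx
    let K : Subgroup H :=
      { carrier := {h | ∀ w ∈ W 0, ρ (h : G) w = w}
        one_mem' := fun w _ => by simp
        mul_mem' := fun {u v} hu hv w hw => by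
          rw [Subgroup.coe_mul, hmm, hv w hw, hu w hw]
        inv_mem' := fun {u} hu w hw => by
          rw [Subgroup.coe_inv]; conv_lhs => rw [← hu w hw]
          exact hinv _ _ }
    haveI : K.Normal := ⟨fun u hu g w hw => by
      have hw' : ρ (g : G)⁻¹ w ∈ W 0 := hHinv _ (H.inv_mem g.2) 0 w hw
      rw [Subgroup.coe_mul, Subgroup.coe_mul, Subgroup.coe_inv, hmm, hmm, hu _ hw', ← hmm,
        mul_inv_cancel, map_one]
      rfl⟩
    have hK1 : K ≠ ⊥ := fun e => hh₁1 (congrArg Subtype.val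
      ((Subgroup.eq_bot_iff_forall _).1 e ⟨h₁, hh₁⟩ hh₁fix))
    obtain ⟨z₀, hz₀K, hz₀1, hz₀c⟩ := TwoGroups.exists_mem_center_of_normal (hG.to_subgroup H) hK1
    obtain ⟨k, hk⟩ := IsPGroup.iff_orderOf.1 (hG.to_subgroup H) z₀
    obtain ⟨k, rfl⟩ : ∃ k', k = k' + 1 := ⟨k - 1, by
      rcases k with _ | k
      · rw [pow_zero, orderOf_eq_one_iff] at hk; exact absurd hk hz₀1
      · rfl⟩
    set t := z₀ ^ 2 ^ k with ht
    have htt : t * t = 1 := by
      rw [ht, ← pow_add, show 2 ^ k + 2 ^ k = 2 ^ (k + 1) by ring, ← hk, pow_orderOf_eq_one]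
    have ht1 : t ≠ 1 := fun e => by
      have := Nat.le_of_dvd (Nat.two_pow_pos k) (hk ▸ orderOf_dvd_of_pow_eq_one e)
      have h9 := Nat.two_pow_pos k
      have h10 : 2 ^ (k + 1) = 2 ^ k * 2 := pow_succ 2 k
      omega
    have htK : t ∈ K := K.pow_mem hz₀K _
    have htc : t ∈ Subgroup.center H := Subgroup.pow_mem _ hz₀c _
    refine ⟨t, t.2, htK, fun w hw => ?_⟩
    let B₁ : Submodule (ZMod q) V := W 1 ⊓ LinearMap.eqLocus (ρ (t : G) : V →ₗ[ZMod q] V) LinearMap.id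
    have hB₁ : ∀ v, v ∈ B₁ ↔ v ∈ W 1 ∧ ρ (t : G) v = v := fun v => Iff.rfl
    let U : Submodule (ZMod q) V := B₁ ⊔ B₁.map (ρ g₀' : V →ₗ[ZMod q] V)
    have hHB : ∀ h ∈ H, ∀ v ∈ B₁, ρ h v ∈ B₁ := by
      intro h hh v hv
      rw [hB₁] at hv ⊢
      refine ⟨hHinv h hh 1 v hv.1, ?_⟩
      have := congrArg (fun z : H => (z : G)) (Subgroup.mem_center_iff.1 htc ⟨h, hh⟩)
      simp only [Subgroup.coe_mul] at this
      rw [← hmm, ← this, hmm, hv.2]
    have hUinv : ∀ g : G, ∀ u ∈ U, ρ g u ∈ U := by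
      intro g u hu
      obtain ⟨b, hb, b', hb', rfl⟩ := Submodule.mem_sup.1 hu
      obtain ⟨b'', hb'', rfl⟩ := hb'
      rw [map_add]
      by_cases hg : g ∈ H
      · refine U.add_mem (Submodule.mem_sup_left (hHB g hg b hb)) (Submodule.mem_sup_right ⟨ρ (g₀'⁻¹ * g * g₀') b'', ?_, ?_⟩)
        · exact hHB _ (by simpa using hHn.conj_mem g hg g₀'⁻¹) b'' hb''
        · show ρ g₀' (ρ (g₀'⁻¹ * g * g₀') b'') = ρ g (ρ g₀' b'')
          rw [← hmm, ← hmm]; group
      · have hmem : g₀'⁻¹ * g ∈ H := hmulH.2 ⟨fun h => absurd ((inv_mem_iff).1 h) hg₀', fun h => absurd h hg⟩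
        have hmem' : g * g₀' ∈ H := hmulH.2 ⟨fun h => absurd h hg, fun h => absurd h hg₀'⟩
        refine U.add_mem (Submodule.mem_sup_right ⟨ρ (g₀'⁻¹ * g) b, hHB _ hmem b hb, ?_⟩)
          (Submodule.mem_sup_left ?_)
        · show ρ g₀' (ρ (g₀'⁻¹ * g) b) = ρ g b
          rw [← hmm]; group
        · show ρ g (ρ g₀' b'') ∈ B₁
          rw [← hmm]; exact hHB _ hmem' b'' hb''
    rcases hirr U hUinv with h | h
    · have htt' : ρ (t : G) (ρ (t : G) w) = w := by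
        rw [← hmm, ← Subgroup.coe_mul, htt, Subgroup.coe_one, map_one]; rfl
      have : w + ρ (t : G) w ∈ U := Submodule.mem_sup_left ((hB₁ _).2
        ⟨(W 1).add_mem hw (hHinv _ t.2 1 w hw), by rw [map_add, htt', add_comm]⟩)
      rw [h, Submodule.mem_bot] at this
      exact eq_neg_of_add_eq_zero_right this
    · exfalso
      apply ht1
      refine Subtype.ext (hfaith _ htK fun v hv => ?_)
      obtain ⟨b, hb, b', hb', e⟩ := Submodule.mem_sup.1 (h ▸ (Submodule.mem_top : v ∈ ⊤) : v ∈ U)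
      obtain ⟨b'', hb'', rfl⟩ := hb'
      have h' := huniq _ (hsw1 g₀' hg₀' b'' ((hB₁ _).1 hb'').1) _ ((hB₁ _).1 hb).1 0 (W 0).zero_mem v hv
        (by rw [zero_add, ← e, add_comm]; rfl)
      rw [← h'.2]
      exact ((hB₁ _).1 hb).2
  -- the stabiliser of `a` is `⟨t⟩`
  have hpm : ∀ a ∈ W 0, a ≠ 0 → ∀ h ∈ stab ρ a, ∀ b ∈ W 1, ρ h b = b ∨ ρ h b = -b := by
    intro a ha ha0 h hh b hb
    by_cases hb0 : b = 0
    · left; rw [hb0, map_zero]
    by_cases hfix : ρ h b = b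
    · exact Or.inl hfix
    right
    have h1 : ρ t b ≠ b := by
      rw [htB b hb]; intro e
      exact hb0 (h2v b (neg_eq_iff_add_eq_zero.1 e))
    have h2 := hcomp a ha ha0 b hb hb0 t (htA a ha) h hh h1 hfix
    rw [hmm, htB _ (hHinv h (hstabH a ha ha0 hh) 1 b hb)] at h2
    exact neg_eq_iff_eq_neg.1 h2
  have hscal : ∀ a ∈ W 0, a ≠ 0 → ∀ h ∈ stab ρ a,
      (∀ b ∈ W 1, ρ h b = b) ∨ (∀ b ∈ W 1, ρ h b = -b) := by
    intro a ha ha0 h hh
    by_cases h1 : ∀ b ∈ W 1, ρ h b = b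
    · exact Or.inl h1
    push Not at h1
    obtain ⟨b₁, hb₁, hne₁⟩ := h1
    refine Or.inr fun b hb => ?_
    have e₁ := (hpm a ha ha0 h hh b₁ hb₁).resolve_left hne₁
    rcases hpm a ha ha0 h hh b hb with e | e
    · rcases hpm a ha ha0 h hh (b₁ + b) ((W 1).add_mem hb₁ hb) with e' | e'
      · exfalso
        rw [map_add, e, add_left_inj] at e'
        exact hne₁ e'
      · rw [map_add, e₁, e, neg_add, add_right_inj] at e'
        rw [e]; exact e'
    · exact e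
  have htg : ∀ g, g ∉ H → ∀ v ∈ W 0, ρ (g * t * g⁻¹) v = -v := fun g hg v hv => by
    have h1 : ρ g⁻¹ v ∈ W 1 := hsw0 g⁻¹ (fun h => hg (inv_mem_iff.1 h)) v hv
    rw [hmm, hmm, htB _ h1, map_neg, ← hmm, mul_inv_cancel, map_one]; rfl
  have hfixB : ∀ a ∈ W 0, a ≠ 0 → ∀ m ∈ stab ρ a, (∀ b ∈ W 1, ρ m b = b) → m = 1 := by
    intro a ha ha0 m hm hmB
    -- conjugate to the stabiliser of a vector of `W 0`
    have hg : g₀'⁻¹ ∉ H := fun h => hg₀' (inv_mem_iff.1 h)
    set b := ρ g₀' a with hb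
    have hbB : b ∈ W 1 := hsw0 g₀' hg₀' a ha
    have hb0 : b ≠ 0 := fun e => ha0 ((LinearEquiv.map_eq_zero_iff _).1 (hb ▸ e))
    set m' := g₀'⁻¹ * m * g₀' with hm'
    have hm'a : m' ∈ stab ρ a := by
      show ρ m' a = a
      rw [hm', hmm, hmm, ← hb, hmB b hbB, hb, hinv]
    rcases hscal a ha ha0 m' hm'a with h | h
    · refine hfaith m (fun v hv => ?_) hmB
      have h1 := h _ (hsw0 g₀'⁻¹ hg v hv)
      rw [hm', hmm, hmm, ← hmm g₀' g₀'⁻¹, mul_inv_cancel, map_one] at h1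
      exact (ρ g₀'⁻¹).injective h1
    · exfalso
      have h1 := h _ (hsw0 g₀'⁻¹ hg a ha)
      rw [hm', hmm, hmm, ← hmm g₀' g₀'⁻¹, mul_inv_cancel, map_one, show (1 : V ≃ₗ[ZMod q] V) a = a from rfl,
        show ρ m a = a from hm] at h1
      have h2 := h2v _ (eq_neg_iff_add_eq_zero.1 h1)
      exact ha0 ((LinearEquiv.map_eq_zero_iff _).1 h2)
  have hts : ∀ a ∈ W 0, a ≠ 0 → ∀ h ∈ stab ρ a, h = 1 ∨ h = t := by
    intro a ha ha0 h hh
    rcases hscal a ha ha0 h hh with hb | hb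
    · exact Or.inl (hfixB a ha ha0 h hh hb)
    · right
      have := hfixB a ha ha0 (t⁻¹ * h) ((stab ρ a).mul_mem ((stab ρ a).inv_mem (htA a ha)) hh)
        fun b hb' => by
          rw [hmm, hb b hb', ← htB b hb']
          exact hinv _ _
      exact (inv_mul_eq_one.1 this).symm
  have hc2 : c ≤ 2 := by
    rw [← hc a₀ ha₀0]
    show Nat.card ((stab ρ a₀ : Set G)) ≤ 2
    rw [Nat.card_coe_set_eq]
    refine le_trans (Set.ncard_le_ncard (t := ({1, t} : Set G)) (fun g hg => ?_) (Set.toFinite _)) ?_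
    · rcases hts a₀ ha₀ ha₀0 g hg with rfl | rfl <;> simp
    · exact (Set.ncard_insert_le _ _).trans (by simp)
  have hswapping : ∀ a ∈ W 0, a ≠ 0 → ∀ b ∈ W 1, b ≠ 0 → ∃ g, g ∉ H ∧ ρ g a = b ∧ ρ g b = a := by
    intro a ha ha0 b hb hb0
    have hab : a + b ≠ 0 := fun h => hb0 (hAB b (by
      rw [eq_neg_of_add_eq_zero_right h]; exact (W 0).neg_mem ha) hb)
    obtain ⟨⟨g, hg⟩, hg1⟩ : ∃ g : stab ρ (a + b), g ≠ 1 := by
      haveI : Nontrivial (stab ρ (a + b)) := Finite.one_lt_card_iff_nontrivial.1 (by rw [hc _ hab]; exact hc1)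
      exact exists_ne 1
    have hg' : ρ g a + ρ g b = a + b := by rw [← map_add]; exact hg
    by_cases hgH : g ∈ H
    · exfalso
      obtain ⟨e1, e2⟩ := huniq _ (hHinv g hgH 0 a ha) _ (hHinv g hgH 1 b hb) a ha b hb hg'
      rcases hts a ha ha0 g e1 with rfl | rfl
      · exact hg1 rfl
      · rw [htB b hb] at e2
        exact hb0 (h2v b (neg_eq_iff_add_eq_zero.1 e2))
    · obtain ⟨e1, e2⟩ := huniq _ (hsw1 g hgH b hb) _ (hsw0 g hgH a ha) a ha b hb (by rw [add_comm]; exact hg')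
      exact ⟨g, hgH, e2, e1⟩
  have htrans : ∀ a ∈ W 0, a ≠ 0 → ∃ h ∈ H, ρ h a₀ = a := by
    intro a ha ha0
    obtain ⟨g₁, hg₁, e₁, -⟩ := hswapping a₀ ha₀ ha₀0 b₀ hb₀ hb₀0
    obtain ⟨g₂, hg₂, -, e₂⟩ := hswapping a ha ha0 b₀ hb₀ hb₀0
    exact ⟨g₂ * g₁, hmulH.2 ⟨fun h => absurd h hg₂, fun h => absurd h hg₁⟩, by rw [hmm, e₁, e₂]⟩
  obtain ⟨r, hrW⟩ : ∃ r, Nat.card (W 0) = q ^ r := ⟨Module.finrank (ZMod q) (W 0), by
    rw [Module.natCard_eq_pow_finrank (K := ZMod q), Nat.card_zmod]⟩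
  obtain ⟨j, hj⟩ : ∃ j, q ^ r = 2 ^ j + 1 := by
    have horb : {u : V | ∃ g : H, ρ (g : G) a₀ = u} = (W 0 : Set V) \ {0} := by
      ext u
      constructor
      · rintro ⟨g, rfl⟩
        exact ⟨hHinv _ g.2 0 _ ha₀, fun e => ha₀0 ((LinearEquiv.map_eq_zero_iff _).1 e)⟩
      · rintro ⟨hu, hu0⟩
        obtain ⟨h, hh, e⟩ := htrans u hu hu0
        exact ⟨⟨h, hh⟩, e⟩
    have h1 := orbit_mul_stab (ρ.comp H.subtype) a₀
    obtain ⟨n, hn⟩ := IsPGroup.iff_card.1 (hG.to_subgroup H)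
    have h2 : Nat.card {u : V | ∃ g : H, ρ (g : G) a₀ = u} ∣ 2 ^ n := by
      rw [← hn, ← h1]; exact dvd_mul_right _ _
    obtain ⟨j, -, hj⟩ := (Nat.dvd_prime_pow Nat.prime_two).1 h2
    refine ⟨j, ?_⟩
    rw [← hj, horb, ← hrW, Nat.card_coe_set_eq]
    exact (Set.ncard_sdiff_singleton_add_one (W 0).zero_mem).symm
  have hr1 : 1 ≤ r := by
    rcases r with _ | r
    · rw [pow_zero] at hj; have := Nat.two_pow_pos j; omega
    · omega
  obtain ⟨g₁, hg₁, hga, hgb⟩ := hswapping a₀ ha₀ ha₀0 b₀ hb₀ hb₀0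
  have hW1 : Nat.card (W 1) = Nat.card (W 0) := by
    refine (Nat.card_congr (Equiv.ofBijective (fun a : W 0 => (⟨ρ g₁ a, hsw0 g₁ hg₁ a a.2⟩ : W 1)) ?_)).symm
    refine ⟨fun a b h => Subtype.ext ((ρ g₁).injective (congrArg Subtype.val h)), fun b => ?_⟩
    refine ⟨⟨ρ g₁⁻¹ b, hsw1 _ (fun h => hg₁ (inv_mem_iff.1 h)) _ b.2⟩, Subtype.ext ?_⟩
    show ρ g₁ (ρ g₁⁻¹ b) = b
    rw [← hmm, mul_inv_cancel, map_one]; rfl
  have hVcard : Nat.card V = Nat.card (W 0) * Nat.card (W 0) := by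
    conv_rhs => arg 2; rw [← hW1]
    rw [← Nat.card_prod]
    refine (Nat.card_congr (Equiv.ofBijective (fun p : W 0 × W 1 => (p.1 : V) + p.2) ⟨?_, ?_⟩)).symm
    · rintro ⟨a, b⟩ ⟨a', b'⟩ h
      obtain ⟨e1, e2⟩ := huniq _ a.2 _ b.2 _ a'.2 _ b'.2 h
      exact Prod.ext (Subtype.ext e1) (Subtype.ext e2)
    · intro v
      obtain ⟨a, ha, b, hb, e⟩ := hsplit v
      exact ⟨(⟨a, ha⟩, ⟨b, hb⟩), e⟩
  rcases pow_eq_two_pow_add_one ((Fact.out : q.Prime).odd_of_ne_two hq2) (Fact.out : q.Prime).one_lt hr1 hj with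
    rfl | ⟨rfl, rfl⟩
  swap
  · exact Or.inr ⟨by rw [hVcard, hrW]; norm_num, rfl⟩
  left
  rw [pow_one] at hrW hj
  refine ⟨by rw [hVcard, hrW, sq], ⟨j, hj⟩, ?_⟩
  -- coordinates
  let L : (Fin 2 → ZMod q) →ₗ[ZMod q] V :=
    (LinearMap.proj 0).smulRight a₀ + (LinearMap.proj 1).smulRight b₀
  have hLv : ∀ v, L v = v 0 • a₀ + v 1 • b₀ := fun v => rfl
  have hLinj : Function.Injective L := by
    rw [injective_iff_map_eq_zero]
    intro v hv
    obtain ⟨e1, e2⟩ := huniq _ ((W 0).smul_mem (v 0) ha₀) _ ((W 1).smul_mem (v 1) hb₀) 0 (W 0).zero_mem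
      0 (W 1).zero_mem (by rw [← hLv, hv, add_zero])
    rw [smul_eq_zero] at e1 e2
    funext i
    fin_cases i
    exacts [e1.resolve_right ha₀0, e2.resolve_right hb₀0]
  have hLbij : Function.Bijective L := (Nat.bijective_iff_injective_and_card L).2 ⟨hLinj, by
    rw [hVcard, hrW, Nat.card_fun, Nat.card_zmod, Nat.card_fin, sq]⟩
  let L' : (Fin 2 → ZMod q) ≃ₗ[ZMod q] V := LinearEquiv.ofBijective L hLbij
  refine ⟨L'.symm, fun f => ?_⟩
  have hdiag : ∀ u : ZMod q, u ≠ 0 → ∃ d ∈ H, ρ d a₀ = u • a₀ ∧ ρ d b₀ = u⁻¹ • b₀ := by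
    intro u hu
    obtain ⟨g, hg, ea, eb⟩ := hswapping a₀ ha₀ ha₀0 (u • b₀) ((W 1).smul_mem u hb₀) (smul_ne_zero hu hb₀0)
    refine ⟨g₁ * g, hmulH.2 ⟨fun h => absurd h hg₁, fun h => absurd h hg⟩, by
      rw [hmm, ea, map_smul, hgb], ?_⟩
    rw [map_smul] at eb
    rw [hmm, show ρ g b₀ = u⁻¹ • a₀ by rw [← eb, smul_smul, inv_mul_cancel₀ hu, one_smul], map_smul, hga]
  have hline : ∀ v ∈ W 0, ∃ u : ZMod q, v = u • a₀ := by
    intro v hv
    obtain ⟨p, hp⟩ := hLbij.2 v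
    rw [hLv] at hp
    obtain ⟨e1, -⟩ := huniq _ ((W 0).smul_mem (p 0) ha₀) _ ((W 1).smul_mem (p 1) hb₀) v hv 0
      (W 1).zero_mem (by rw [hp, add_zero])
    exact ⟨p 0, e1.symm⟩
  have hHform : ∀ h ∈ H, ∃ a s : ZMod q, a ≠ 0 ∧ (s = 1 ∨ s = -1) ∧
      ρ h a₀ = a • a₀ ∧ ρ h b₀ = (s * a⁻¹) • b₀ := by
    intro h hh
    obtain ⟨u, hu⟩ := hline _ (hHinv h hh 0 a₀ ha₀)
    have hu0 : u ≠ 0 := fun e => ha₀0 ((LinearEquiv.map_eq_zero_iff _).1 (by rw [hu, e, zero_smul]))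
    obtain ⟨d, hd, eda, edb⟩ := hdiag u hu0
    rcases hts a₀ ha₀ ha₀0 (d⁻¹ * h) (by
      show ρ (d⁻¹ * h) a₀ = a₀
      rw [hmm, hu, ← eda, hinv]) with e | e
    · refine ⟨u, 1, hu0, Or.inl rfl, hu, ?_⟩
      rw [← inv_mul_eq_one.1 e, edb, one_mul]
    · refine ⟨u, -1, hu0, Or.inr rfl, hu, ?_⟩
      rw [show h = d * t by rw [← e, mul_inv_cancel_left], hmm, htB b₀ hb₀, map_neg, edb, neg_one_mul,
        neg_smul]
  constructor
  · rintro ⟨g, rfl⟩
    have key : ∀ (a s : ZMod q), ρ g a₀ = a • a₀ → ρ g b₀ = (s * a⁻¹) • b₀ →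
        ∀ v, L'.symm (ρ g (L' v)) = ![a * v 0, s * a⁻¹ * v 1] := fun a s e1 e2 v => by
      rw [LinearEquiv.symm_apply_eq]
      show ρ g (L v) = L _
      simp only [hLv, map_add, map_smul, e1, e2, smul_smul, Matrix.cons_val_zero, Matrix.cons_val_one]
      rw [mul_comm (v 0), mul_comm (v 1)]
    by_cases hg : g ∈ H
    · obtain ⟨a, s, ha, hs, e1, e2⟩ := hHform g hg
      refine ⟨a, s, ha, hs, Or.inl fun v => ?_⟩
      exact key a s e1 e2 v
    · obtain ⟨a, s, ha, hs, e1, e2⟩ := hHform (g₁⁻¹ * g)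
        (hmulH.2 ⟨fun h => absurd (inv_mem_iff.1 h) hg₁, fun h => absurd h hg⟩)
      refine ⟨a, s, ha, hs, Or.inr fun v => ?_⟩
      show L'.symm (ρ g (L' v)) = _
      rw [LinearEquiv.symm_apply_eq]
      show ρ g (L v) = L _
      rw [show g = g₁ * (g₁⁻¹ * g) by group]
      simp only [hmm g₁, hLv, map_add, map_smul, e1, e2, hga, hgb, smul_smul, Matrix.cons_val_zero,
        Matrix.cons_val_one]
      rw [mul_comm (v 0), mul_comm (v 1), add_comm]
  · rintro ⟨a, s, ha, hs, hf⟩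
    obtain ⟨d, hd, eda, edb⟩ := hdiag a ha
    obtain ⟨d', hd', eda', edb'⟩ : ∃ d' ∈ H, ρ d' a₀ = a • a₀ ∧ ρ d' b₀ = (s * a⁻¹) • b₀ := by
      rcases hs with rfl | rfl
      · exact ⟨d, hd, eda, by rw [edb, one_mul]⟩
      · refine ⟨d * t, H.mul_mem hd htH, by rw [hmm, htA a₀ ha₀, eda], ?_⟩
        rw [hmm, htB b₀ hb₀, map_neg, edb, neg_one_mul, neg_smul]
    rcases hf with hf | hf
    · refine ⟨d', LinearEquiv.ext fun v => ?_⟩
      show f v = L'.symm (ρ d' (L' v))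
      rw [hf, LinearEquiv.eq_symm_apply]
      show L _ = ρ d' (L v)
      simp only [hLv, map_add, map_smul, eda', edb', smul_smul, Matrix.cons_val_zero, Matrix.cons_val_one]
      rw [mul_comm (v 0), mul_comm (v 1)]
    · refine ⟨g₁ * d', LinearEquiv.ext fun v => ?_⟩
      show f v = L'.symm (ρ (g₁ * d') (L' v))
      rw [hf, LinearEquiv.eq_symm_apply]
      show L _ = ρ (g₁ * d') (L v)
      simp only [hmm g₁, hLv, map_add, map_smul, eda', edb', hga, hgb, smul_smul, Matrix.cons_val_zero,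
        Matrix.cons_val_one]
      rw [mul_comm (v 0), mul_comm (v 1), add_comm]

end

end CfsgLib.Spectrum.HalfTransP
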