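import Mathlib

/-!
A bound for groups generated by `x`, `y` with `x³ = y⁵ = (x y)² = 1` on the cosets of a subgroup
containing `y`, by coset enumeration.
-/

set_option autoImplicit false
set_option linter.unusedVariables false

namespace CfsgLib.Spectrum.Icosahedral

theorem coset_bound {G : Type*} [Group G] {x y : G} (H : Subgroup G) [Finite H] (hyH : y ∈ H)
    (r0 : ∀ q : G ⧸ H, x • x • x • q = q) (r1 : ∀ q : G ⧸ H, y • y • y • y • y • q = q)
    (r2 : ∀ q : G ⧸ H, x • y • x • y • q = q) (S : Set G) (hS : Subgroup.closure S = ⊤)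
    (hgen : ∀ s ∈ S, s = x ∨ s = y ∨ ∀ q : G ⧸ H, s • q = q) :
    Finite G ∧ Nat.card G ≤ 12 * Nat.card H := by
  set q0 : G ⧸ H := ((1 : G) : G ⧸ H) with hq0
  have e1_0 : y • q0 = q0 := by
    rw [hq0, MulAction.Quotient.smul_coe, QuotientGroup.eq]
    simpa using H.inv_mem hyH
  set q1 : G ⧸ H := x • q0 with hq1
  have e0_0 : x • q0 = q1 := rfl
  set q2 : G ⧸ H := x • q1 with hq2
  have e0_1 : x • q1 = q2 := rfl
  have e0_2 : x • q2 = q0 := by
    have h := r0 q0
    rw [e0_0, e0_1] at h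
    exact h
  have e1_1 : y • q1 = q2 := by
    have h := r2 q0
    rw [e1_0, e0_0] at h
    replace h := smul_left_cancel x (h.trans e0_2.symm)
    exact h
  set q3 : G ⧸ H := y • q2 with hq3
  have e1_2 : y • q2 = q3 := rfl
  set q4 : G ⧸ H := x • q3 with hq4
  have e0_3 : x • q3 = q4 := rfl
  have e1_4 : y • q4 = q1 := by
    have h := r2 q2
    rw [e1_2, e0_3] at h
    replace h := smul_left_cancel x (h.trans e0_1.symm)
    exact h
  set q5 : G ⧸ H := y • q3 with hq5
  have e1_3 : y • q3 = q5 := rfl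
  have e1_5 : y • q5 = q4 := by
    have h := r1 q1
    rw [e1_1, e1_2, e1_3] at h
    replace h := smul_left_cancel y (h.trans e1_4.symm)
    exact h
  set q6 : G ⧸ H := x • q4 with hq6
  have e0_4 : x • q4 = q6 := rfl
  have e0_6 : x • q6 = q3 := by
    have h := r0 q3
    rw [e0_3, e0_4] at h
    exact h
  set q7 : G ⧸ H := x • q5 with hq7
  have e0_5 : x • q5 = q7 := rfl
  have e1_7 : y • q7 = q6 := by
    have h := r2 q3
    rw [e1_3, e0_5] at h
    replace h := smul_left_cancel x (h.trans e0_6.symm)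
    exact h
  set q8 : G ⧸ H := y • q6 with hq8
  have e1_6 : y • q6 = q8 := rfl
  have e0_8 : x • q8 = q5 := by
    have h := r2 q5
    rw [e1_5, e0_4, e1_6] at h
    exact h
  have e0_7 : x • q7 = q8 := by
    have h := r0 q7
    replace h := smul_left_cancel x (h.trans e0_5.symm)
    replace h := smul_left_cancel x (h.trans e0_8.symm)
    exact h
  set q9 : G ⧸ H := y • q8 with hq9
  have e1_8 : y • q8 = q9 := rfl
  set q10 : G ⧸ H := x • q9 with hq10
  have e0_9 : x • q9 = q10 := rfl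
  have e1_10 : y • q10 = q7 := by
    have h := r2 q8
    rw [e1_8, e0_9] at h
    replace h := smul_left_cancel x (h.trans e0_7.symm)
    exact h
  have e1_9 : y • q9 = q10 := by
    have h := r1 q9
    replace h := smul_left_cancel y (h.trans e1_8.symm)
    replace h := smul_left_cancel y (h.trans e1_6.symm)
    replace h := smul_left_cancel y (h.trans e1_7.symm)
    replace h := smul_left_cancel y (h.trans e1_10.symm)
    exact h
  set q11 : G ⧸ H := x • q10 with hq11
  have e0_10 : x • q10 = q11 := rfl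
  have e0_11 : x • q11 = q9 := by
    have h := r0 q9
    rw [e0_9, e0_10] at h
    exact h
  have e1_11 : y • q11 = q11 := by
    have h := r2 q9
    rw [e1_9, e0_10] at h
    replace h := smul_left_cancel x (h.trans e0_11.symm)
    exact h
  let qs : Fin 12 → G ⧸ H := ![q0, q1, q2, q3, q4, q5, q6, q7, q8, q9, q10, q11]
  have hx : (∀ i, ∃ j, x • qs i = qs j) ∧ ∀ i, ∃ j, x⁻¹ • qs i = qs j := by
    constructor <;> intro i <;> fin_cases i
    all_goals first
      | exact ⟨1, e0_0⟩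
      | exact ⟨2, e0_1⟩
      | exact ⟨0, e0_2⟩
      | exact ⟨4, e0_3⟩
      | exact ⟨6, e0_4⟩
      | exact ⟨7, e0_5⟩
      | exact ⟨3, e0_6⟩
      | exact ⟨8, e0_7⟩
      | exact ⟨5, e0_8⟩
      | exact ⟨10, e0_9⟩
      | exact ⟨11, e0_10⟩
      | exact ⟨9, e0_11⟩
      | exact ⟨2, inv_smul_eq_iff.mpr e0_2.symm⟩
      | exact ⟨0, inv_smul_eq_iff.mpr e0_0.symm⟩
      | exact ⟨1, inv_smul_eq_iff.mpr e0_1.symm⟩
      | exact ⟨6, inv_smul_eq_iff.mpr e0_6.symm⟩
      | exact ⟨3, inv_smul_eq_iff.mpr e0_3.symm⟩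
      | exact ⟨8, inv_smul_eq_iff.mpr e0_8.symm⟩
      | exact ⟨4, inv_smul_eq_iff.mpr e0_4.symm⟩
      | exact ⟨5, inv_smul_eq_iff.mpr e0_5.symm⟩
      | exact ⟨7, inv_smul_eq_iff.mpr e0_7.symm⟩
      | exact ⟨11, inv_smul_eq_iff.mpr e0_11.symm⟩
      | exact ⟨9, inv_smul_eq_iff.mpr e0_9.symm⟩
      | exact ⟨10, inv_smul_eq_iff.mpr e0_10.symm⟩
  have hy : (∀ i, ∃ j, y • qs i = qs j) ∧ ∀ i, ∃ j, y⁻¹ • qs i = qs j := by
    constructor <;> intro i <;> fin_cases i
    all_goals first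
      | exact ⟨0, e1_0⟩
      | exact ⟨2, e1_1⟩
      | exact ⟨3, e1_2⟩
      | exact ⟨5, e1_3⟩
      | exact ⟨1, e1_4⟩
      | exact ⟨4, e1_5⟩
      | exact ⟨8, e1_6⟩
      | exact ⟨6, e1_7⟩
      | exact ⟨9, e1_8⟩
      | exact ⟨10, e1_9⟩
      | exact ⟨7, e1_10⟩
      | exact ⟨11, e1_11⟩
      | exact ⟨0, inv_smul_eq_iff.mpr e1_0.symm⟩
      | exact ⟨4, inv_smul_eq_iff.mpr e1_4.symm⟩
      | exact ⟨1, inv_smul_eq_iff.mpr e1_1.symm⟩
      | exact ⟨2, inv_smul_eq_iff.mpr e1_2.symm⟩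
      | exact ⟨5, inv_smul_eq_iff.mpr e1_5.symm⟩
      | exact ⟨3, inv_smul_eq_iff.mpr e1_3.symm⟩
      | exact ⟨7, inv_smul_eq_iff.mpr e1_7.symm⟩
      | exact ⟨10, inv_smul_eq_iff.mpr e1_10.symm⟩
      | exact ⟨6, inv_smul_eq_iff.mpr e1_6.symm⟩
      | exact ⟨8, inv_smul_eq_iff.mpr e1_8.symm⟩
      | exact ⟨9, inv_smul_eq_iff.mpr e1_9.symm⟩
      | exact ⟨11, inv_smul_eq_iff.mpr e1_11.symm⟩
  have hall : ∀ g : G, ∀ i, ∃ j, g • qs i = qs j := by
    have key : ∀ g ∈ Subgroup.closure S,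
        (∀ i, ∃ j, g • qs i = qs j) ∧ ∀ i, ∃ j, g⁻¹ • qs i = qs j := by
      intro g hg
      induction hg using Subgroup.closure_induction with
      | mem s hs =>
        rcases hgen s hs with rfl | rfl | h
        · exact hx
        · exact hy
        · exact ⟨fun i => ⟨i, h _⟩, fun i => ⟨i, inv_smul_eq_iff.mpr (h _).symm⟩⟩
      | one => exact ⟨fun i => ⟨i, one_smul _ _⟩, fun i => ⟨i, by rw [inv_one, one_smul]⟩⟩
      | mul a b _ _ ha hb =>
        refine ⟨fun i => ?_, fun i => ?_⟩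
        · obtain ⟨j, hj⟩ := hb.1 i
          obtain ⟨k, hk⟩ := ha.1 j
          exact ⟨k, by rw [mul_smul, hj, hk]⟩
        · obtain ⟨j, hj⟩ := ha.2 i
          obtain ⟨k, hk⟩ := hb.2 j
          exact ⟨k, by rw [mul_inv_rev, mul_smul, hj, hk]⟩
      | inv a _ ha => exact ⟨ha.2, by rw [inv_inv]; exact ha.1⟩
    exact fun g => (key g (by rw [hS]; trivial)).1
  have hsurj : Function.Surjective qs := by
    intro q
    induction q using QuotientGroup.induction_on with
    | H g =>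
      obtain ⟨j, hj⟩ := hall g 0
      refine ⟨j, hj.symm.trans ?_⟩
      show g • q0 = _
      rw [hq0, MulAction.Quotient.smul_coe, smul_eq_mul, mul_one]
  haveI : Finite (G ⧸ H) := Finite.of_surjective qs hsurj
  have hc : Nat.card (G ⧸ H) ≤ 12 := (Nat.card_le_card_of_surjective qs hsurj).trans (by simp)
  haveI : Finite G := Finite.of_equiv _ (Subgroup.groupEquivQuotientProdSubgroup (s := H)).symm
  refine ⟨inferInstance, ?_⟩
  rw [Subgroup.card_eq_card_quotient_mul_card_subgroup H]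
  exact Nat.mul_le_mul_right _ hc

end CfsgLib.Spectrum.Icosahedral
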