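/-!
Base, transversals and straight-line programs for `M12` on twelve letters.
-/

set_option autoImplicit false

namespace CfsgLib.Spectrum.M12Perm

/-- The eight generators. -/
def genT : List Nat := [171139535290896, 92615224025616, 183942805598736, 80841396400656,
  164327252963856, 167926364897811, 148896472117761, 114875801284896]

/-- Transversals along the base. -/
def levels : List (Nat × List Nat) := [
  (2, [171143312191521, 114875801284896, 205163983024656, 203987229082401,
  169769507816481, 188533650425121, 92056794367521, 57839073101601,
  76603215710241, 147692243781921, 129425772907041, 144686077840161]),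
  (0, [205163983024656, 148896472117761, 167926364897811, 183186666881556,
  201938729894421, 65234555830806, 80494857814551, 99246920827416,
  111631379595801, 100576930562586, 63266835792411]),
  (1, [205163983024656, 133756964049456, 152521103708736, 118303385391696,
  179535463518816, 198299603178096, 134498700825216, 77461978747536,
  76512614683296, 91979027714736]),
  (3, [205163983024656, 171139535290896, 186605193351696, 92615224025616,
  58590776291856, 74056434352656, 148868997747216, 133432927101456,
  151978882019856]),
  (4, [205163983024656, 132399770186256, 183942805598736, 80841396400656,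
  110731096240656, 153208536773136, 164327252963856, 95285065495056])]

/-- Program over the first seven generators. -/
def slp11 : List (Nat × Nat × Nat) := [(183186666881556, 0, 5), (201938729894421, 0, 8),
  (65234555830806, 1, 5), (80494857814551, 1, 8),
  (99246920827416, 1, 9), (111631379595801, 1, 10),
  (100576930562586, 4, 8), (63266835792411, 4, 10),
  (118230153957891, 6, 5), (133756964049456, 5, 16),
  (152521103708736, 0, 17), (118303385391696, 0, 18),
  (179535463518816, 1, 17), (198299603178096, 1, 18),
  (183040958792241, 5, 6), (80967474020961, 1, 22),
  (183977478849201, 4, 23), (134498700825216, 6, 24),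
  (77461978747536, 6, 23), (76512614683296, 4, 18),
  (91979027714736, 4, 20), (186605193351696, 0, 0),
  (58590776291856, 1, 0), (74056434352656, 1, 29),
  (148868997747216, 1, 1), (133432927101456, 4, 0),
  (151978882019856, 4, 1), (132399770186256, 2, 2),
  (110731096240656, 2, 3), (153208536773136, 3, 4),
  (95285065495056, 4, 2)]

/-- Program over all generators. -/
def slp12 : List (Nat × Nat × Nat) := [(171143312191521, 6, 7), (203987229082401, 5, 9),
  (169769507816481, 0, 10), (188533650425121, 0, 11),
  (92056794367521, 1, 10), (57839073101601, 1, 11),
  (76603215710241, 1, 12), (147692243781921, 1, 13),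
  (129425772907041, 4, 11), (144686077840161, 4, 13),
  (183186666881556, 0, 5), (201938729894421, 0, 19),
  (65234555830806, 1, 5), (80494857814551, 1, 19),
  (99246920827416, 1, 20), (111631379595801, 1, 21),
  (100576930562586, 4, 19), (63266835792411, 4, 21),
  (118230153957891, 6, 5), (133756964049456, 5, 27),
  (152521103708736, 0, 28), (118303385391696, 0, 29),
  (179535463518816, 1, 28), (198299603178096, 1, 29),
  (183040958792241, 5, 6), (80967474020961, 1, 33),
  (183977478849201, 4, 34), (134498700825216, 6, 35),
  (77461978747536, 6, 34), (76512614683296, 4, 29),
  (91979027714736, 4, 31), (186605193351696, 0, 0),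
  (58590776291856, 1, 0), (74056434352656, 1, 40),
  (148868997747216, 1, 1), (133432927101456, 4, 0),
  (151978882019856, 4, 1), (132399770186256, 2, 2),
  (110731096240656, 2, 3), (153208536773136, 3, 4),
  (95285065495056, 4, 2)]

end CfsgLib.Spectrum.M12Perm
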