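import Mathlib
import Cfsg.Agent.Lib.Spectrum.M12Data

/-!
Certified stabiliser chain for a group of permutations of twelve letters given by generators.
-/

set_option autoImplicit false

namespace CfsgLib.Spectrum.M12Perm

/-- Image of a letter under a packed table. -/
def imAt (t i : ℕ) : ℕ := (t >>> (4 * i)) % 16

/-- Packing. -/
def pack (l : List ℕ) : ℕ := l.foldr (fun x acc => x + 16 * acc) 0

/-- Composition of tables. -/
def cmp (a b : ℕ) : ℕ := pack ((List.range 12).map fun i => imAt a (imAt b i))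

/-- The identity table. -/
def idT : ℕ := pack ((List.range 12).map id)

/-- A candidate inverse. -/
def invT (u : ℕ) : ℕ :=
  pack ((List.range 12).map fun i => (List.range 12).findIdx fun k => imAt u k == i)

/-- Evaluate before use. -/
def force {α : Type} (n : ℕ) (k : ℕ → α) : α :=
  match n with
  | 0 => k 0
  | m + 1 => k (m + 1)

theorem force_eq {α : Type} (n : ℕ) (k : ℕ → α) : force n k = k n := by cases n <;> rfl

/-- Membership in the product of the transversals. -/
def memL : List (ℕ × List ℕ) → ℕ → Bool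
  | [], t => t == idT
  | l :: ls, t => l.2.any fun u => imAt u l.1 == imAt t l.1 &&
      (force (cmp (invT u) t) fun w =>
       cmp u w == t && (List.range 12).all (fun i => decide (imAt w i < 12)) && memL ls w)

/-- The product of the transversals is closed under multiplication by its factors. -/
def closedL : List (ℕ × List ℕ) → Bool
  | [] => true
  | l :: ls => closedL ls && memL (l :: ls) idT &&
      ((l.2 ++ ls.flatMap Prod.snd).all fun a => l.2.all fun u => force (cmp a u) (memL (l :: ls)))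

/-- The transversals fix the previous base points, reach every other letter, and do it uniquely. -/
def sharpL : List (ℕ × List ℕ) → List ℕ → Bool
  | [], _ => true
  | l :: ls, prior => decide (l.1 < 12) && !prior.contains l.1 &&
      (l.2.all fun u => (prior.all fun b => imAt u b == b) && (imAt u l.1 != l.1 || u == idT)) &&
      ((List.range 12).all fun i => prior.contains i || l.2.any fun u => imAt u l.1 == i) &&
      sharpL ls (l.1 :: prior)

/-- The packed table of a permutation. -/
def tb (σ : Equiv.Perm (Fin 12)) : ℕ :=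
  pack ((List.range 12).map fun i => if h : i < 12 then (σ ⟨i, h⟩).val else 0)

theorem imAt_pack : ∀ (l : List ℕ), (∀ x ∈ l, x < 16) → ∀ (i : ℕ) (hi : i < l.length),
    imAt (pack l) i = l[i]
  | [], _, i, hi => by simp at hi
  | a :: l, hl, i, hi => by
    have ha := hl a List.mem_cons_self
    simp only [imAt, pack, List.foldr_cons]
    cases i with
    | zero =>
      simp only [mul_zero, Nat.shiftRight_zero, List.getElem_cons_zero]
      omega
    | succ i =>
      have ih := imAt_pack l (fun x hx => hl x (List.mem_cons_of_mem _ hx)) i (by simpa using hi)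
      simp only [imAt, pack] at ih
      rw [List.getElem_cons_succ, ← ih, show 4 * (i + 1) = 4 + 4 * i by ring, Nat.shiftRight_add]
      congr 2
      rw [Nat.shiftRight_eq_div_pow]
      omega

theorem imAt_tb (σ : Equiv.Perm (Fin 12)) (i : Fin 12) : imAt (tb σ) i.val = (σ i).val := by
  rw [tb, imAt_pack _ ?_ i.val (by simp)]
  · simp
  · intro x hx
    obtain ⟨k, hk, rfl⟩ := List.mem_map.1 hx
    rw [dif_pos (List.mem_range.1 hk)]
    omega

theorem tb_injective : Function.Injective tb := fun σ τ h =>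
  Equiv.ext fun i => Fin.ext (by rw [← imAt_tb, ← imAt_tb, h])

theorem tb_mul (σ τ : Equiv.Perm (Fin 12)) : tb (σ * τ) = cmp (tb σ) (tb τ) := by
  rw [tb, cmp]
  refine congrArg pack (List.map_congr_left fun i hi => ?_)
  have hi' := List.mem_range.1 hi
  rw [dif_pos hi']
  have h1 : imAt (tb τ) i = (τ ⟨i, hi'⟩).val := imAt_tb τ ⟨i, hi'⟩
  rw [h1, imAt_tb, Equiv.Perm.mul_apply]

theorem imAt_cmp (a b : ℕ) (i : Fin 12) : imAt (cmp a b) i.val = imAt a (imAt b i.val) := by
  rw [cmp, imAt_pack _ ?_ i.val (by simp)]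
  · simp
  · intro x hx
    obtain ⟨k, hk, rfl⟩ := List.mem_map.1 hx
    exact Nat.mod_lt _ (by norm_num)

theorem eq_tb_of_imAt (a b : ℕ) (σ : Equiv.Perm (Fin 12))
    (h : ∀ i : Fin 12, imAt (cmp a b) i.val = (σ i).val) : cmp a b = tb σ := by
  rw [cmp, tb]
  refine congrArg pack (List.map_congr_left fun i hi => ?_)
  have hi' := List.mem_range.1 hi
  rw [dif_pos hi', ← h ⟨i, hi'⟩, imAt_cmp]

theorem tb_one : tb 1 = idT := by decide +kernel

/-- The elements of the product of the transversals. -/
def InL : List (ℕ × List ℕ) → Equiv.Perm (Fin 12) → Prop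
  | [], σ => σ = 1
  | l :: ls, σ => ∃ u w, tb u ∈ l.2 ∧ InL ls w ∧ σ = u * w

/-- All tables of a chain are tables of permutations in a subgroup. -/
def Realized (K : Subgroup (Equiv.Perm (Fin 12))) (L : List (ℕ × List ℕ)) : Prop :=
  ∀ l ∈ L, ∀ t ∈ l.2, ∃ σ ∈ K, tb σ = t

theorem inL_of_memL {K : Subgroup (Equiv.Perm (Fin 12))} : ∀ {L : List (ℕ × List ℕ)},
    Realized K L → ∀ {σ : Equiv.Perm (Fin 12)}, memL L (tb σ) = true → InL L σ := by
  intro L
  induction L with
  | nil =>
    intro _ σ h
    rw [memL, beq_iff_eq, ← tb_one] at h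
    exact tb_injective h
  | cons l ls ih =>
    intro hK σ h
    rw [memL] at h
    simp only [force_eq, List.any_eq_true, Bool.and_eq_true, beq_iff_eq, List.all_eq_true,
      List.mem_range, decide_eq_true_eq] at h
    obtain ⟨t, ht, -, ⟨hc, hlt⟩, hrec⟩ := h
    obtain ⟨u, -, rfl⟩ := hK l List.mem_cons_self t ht
    have hw : tb (u⁻¹ * σ) = cmp (invT (tb u)) (tb σ) := by
      refine (eq_tb_of_imAt _ _ _ fun i => ?_).symm
      generalize cmp (invT (tb u)) (tb σ) = w at hc hlt ⊢
      have h1 : imAt (cmp (tb u) w) i.val = (σ i).val := by rw [hc, imAt_tb]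
      rw [imAt_cmp, ← Fin.val_mk (hlt _ i.2), imAt_tb] at h1
      have h4 := Fin.ext h1
      show imAt w i.val = (u.symm (σ i)).val
      rw [← h4, Equiv.symm_apply_apply]
    refine ⟨u, u⁻¹ * σ, ht, ih (fun l' hl' => hK l' (List.mem_cons_of_mem _ hl')) ?_,
      (mul_inv_cancel_left u σ).symm⟩
    rw [hw]
    exact hrec

theorem mem_of_inL {K : Subgroup (Equiv.Perm (Fin 12))} : ∀ {L : List (ℕ × List ℕ)},
    Realized K L → ∀ {σ : Equiv.Perm (Fin 12)}, InL L σ → σ ∈ K
  | [], _, _, h => h ▸ K.one_mem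
  | l :: ls, hK, σ, ⟨u, w, hu, hw, e⟩ => by
    obtain ⟨u', hu', he⟩ := hK l List.mem_cons_self _ hu
    rw [e, ← tb_injective he]
    exact K.mul_mem hu' (mem_of_inL (fun l' hl' => hK l' (List.mem_cons_of_mem _ hl')) hw)

theorem inL_prod {M : List (ℕ × List ℕ)}
    (hM : ∀ b, tb b ∈ M.flatMap Prod.snd → ∀ y, InL M y → InL M (b * y))
    {p q : Equiv.Perm (Fin 12)} (hp : InL M p) (hq : InL M q) : InL M (p * q) := by
  have key : ∀ (M' : List (ℕ × List ℕ)), (∀ t ∈ M'.flatMap Prod.snd, t ∈ M.flatMap Prod.snd) →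
      ∀ p, InL M' p → InL M (p * q) := by
    intro M'
    induction M' with
    | nil => intro _ p hp; rw [show p = 1 from hp, one_mul]; exact hq
    | cons l' ls' ih =>
      rintro hsub p ⟨u, w, hu, hw, rfl⟩
      rw [mul_assoc]
      exact hM u (hsub _ (by simp [hu])) _ (ih (fun t ht => hsub t (by
        rw [List.flatMap_cons]; exact List.mem_append_right _ ht)) w hw)
  exact key M (fun _ h => h) p hp

theorem inL_mul_left {K : Subgroup (Equiv.Perm (Fin 12))} : ∀ {L : List (ℕ × List ℕ)},
    Realized K L → closedL L = true → ∀ a, tb a ∈ L.flatMap Prod.snd → ∀ x, InL L x → InL L (a * x) := by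
  intro L
  induction L with
  | nil => intro _ _ a ha; simp at ha
  | cons l ls ih =>
    rintro hK hc a ha x ⟨u, w, hu, hw, rfl⟩
    simp only [closedL, force_eq, Bool.and_eq_true, List.all_eq_true] at hc
    have hK' : Realized K ls := fun l' hl' => hK l' (List.mem_cons_of_mem _ hl')
    obtain ⟨u', w', hu', hw', e'⟩ : InL (l :: ls) (a * u) := inL_of_memL hK (by
      rw [tb_mul]
      exact hc.2 _ (by simpa using ha) _ hu)
    exact ⟨u', w' * w, hu', inL_prod (ih hK' hc.1.1) hw' hw, by rw [← mul_assoc, e', mul_assoc]⟩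

/-- A chain-certified subgroup consists of the products of the transversals. -/
theorem inL_iff {K : Subgroup (Equiv.Perm (Fin 12))} {L : List (ℕ × List ℕ)} {S : Set (Equiv.Perm (Fin 12))}
    (hKS : K = Subgroup.closure S) (hK : Realized K L) (hc : closedL L = true)
    (hid : memL L idT = true) (hS : ∀ s ∈ S, memL L (tb s) = true) (σ : Equiv.Perm (Fin 12)) :
    σ ∈ K ↔ InL L σ := by
  refine ⟨fun h => ?_, mem_of_inL hK⟩
  have hmul := fun p q (hp : InL L p) (hq : InL L q) =>
    inL_prod (inL_mul_left hK hc) hp hq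
  have h1 : InL L 1 := inL_of_memL hK (by rw [tb_one]; exact hid)
  rw [hKS, ← Subgroup.mem_toSubmonoid, Subgroup.closure_toSubmonoid_of_finite] at h
  induction h using Submonoid.closure_induction with
  | mem x hx => exact inL_of_memL hK (hS x hx)
  | one => exact h1
  | mul p q _ _ hp hq => exact hmul p q hp hq

theorem inL_fix : ∀ {L : List (ℕ × List ℕ)} {prior : List ℕ}, sharpL L prior = true →
    ∀ {σ}, InL L σ → ∀ b : Fin 12, b.val ∈ prior → σ b = b
  | [], _, _, σ, h, b, _ => by rw [show σ = 1 from h, Equiv.Perm.one_apply]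
  | l :: ls, prior, hs, σ, ⟨u, w, hu, hw, e⟩, b, hb => by
    simp only [sharpL, Bool.and_eq_true, List.all_eq_true, beq_iff_eq] at hs
    rw [e, Equiv.Perm.mul_apply, inL_fix hs.2 hw b (List.mem_cons_of_mem _ hb)]
    exact Fin.ext (by rw [← imAt_tb]; exact (hs.1.1.2 _ hu).1 _ hb)

theorem inL_eq_one : ∀ {L : List (ℕ × List ℕ)} {prior : List ℕ}, sharpL L prior = true →
    ∀ {σ}, InL L σ → (∀ b : Fin 12, b.val ∈ L.map Prod.fst → σ b = b) → σ = 1
  | [], _, _, σ, h, _ => h
  | l :: ls, prior, hs, σ, ⟨u, w, hu, hw, e⟩, hfix => by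
    simp only [sharpL, Bool.and_eq_true, List.all_eq_true, beq_iff_eq, decide_eq_true_eq,
      Bool.or_eq_true, bne_iff_ne] at hs
    have hwb := inL_fix hs.2 hw ⟨l.1, hs.1.1.1.1⟩ List.mem_cons_self
    have hub : u ⟨l.1, hs.1.1.1.1⟩ = ⟨l.1, hs.1.1.1.1⟩ := by
      have := hfix ⟨l.1, hs.1.1.1.1⟩ (by simp)
      rwa [e, Equiv.Perm.mul_apply, hwb] at this
    have hu1 : u = 1 := by
      rcases (hs.1.1.2 _ hu).2 with h | h
      · exact absurd (by
          have := imAt_tb u ⟨l.1, hs.1.1.1.1⟩
          rw [hub] at this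
          exact this) h
      · exact tb_injective (h.trans tb_one.symm)
    rw [e, hu1, one_mul]
    rw [e, hu1, one_mul] at hfix
    exact inL_eq_one hs.2 hw fun b hb => hfix b (by
      rw [List.map_cons]; exact List.mem_cons_of_mem _ hb)

theorem inL_exists_map {K : Subgroup (Equiv.Perm (Fin 12))} : ∀ {L : List (ℕ × List ℕ)}
    {prior : List ℕ}, Realized K L → sharpL L prior = true →
    ∀ (x : List (Fin 12)), x.length = L.length → x.Nodup → (∀ a ∈ x, a.val ∉ prior) →
    ∃ σ, InL L σ ∧ ∀ (i : ℕ) (hi : i < L.length) (hx : i < x.length),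
      (σ ⟨(L[i]).1 % 12, Nat.mod_lt _ (by norm_num)⟩ : Fin 12) = x[i]
  | [], _, _, _, x, _, _, _ => ⟨1, rfl, fun i hi => by simp at hi⟩
  | l :: ls, prior, hK, hs, x, hlen, hnd, hx => by
    match x, hlen, hnd, hx with
    | a :: xs, hlen, hnd, hx =>
    have hs' := hs
    simp only [sharpL, Bool.and_eq_true, List.all_eq_true, beq_iff_eq, decide_eq_true_eq,
      Bool.or_eq_true, List.any_eq_true, List.mem_range, List.contains_iff_mem] at hs'
    obtain ⟨⟨⟨⟨hb, -⟩, hfix⟩, hcov⟩, hrec⟩ := hs'
    obtain ⟨t, ht, hta⟩ := (hcov a.val a.2).resolve_left (hx a List.mem_cons_self)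
    obtain ⟨u, -, rfl⟩ := hK l List.mem_cons_self t ht
    have hu : u ⟨l.1, hb⟩ = a := Fin.ext (by rw [← imAt_tb]; exact hta)
    obtain ⟨hnd1, hnd2⟩ := List.nodup_cons.1 hnd
    obtain ⟨w, hw, hwx⟩ := inL_exists_map (fun l' hl' => hK l' (List.mem_cons_of_mem _ hl')) hrec (xs.map u.symm) (by simpa using hlen)
      (hnd2.map u.symm.injective) (by
        intro c hc
        obtain ⟨d, hd, rfl⟩ := List.mem_map.1 hc
        rw [List.mem_cons, not_or]
        refine ⟨fun e => hnd1 ?_, fun e => ?_⟩
        · have : u.symm d = ⟨l.1, hb⟩ := Fin.ext e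
          rw [Equiv.symm_apply_eq, hu] at this
          exact this ▸ hd
        · have h1 : u (u.symm d) = u.symm d := Fin.ext (by rw [← imAt_tb]; exact (hfix _ ht).1 _ e)
          rw [Equiv.apply_symm_apply] at h1
          exact hx d (List.mem_cons_of_mem _ hd) (by rw [h1]; exact e))
    refine ⟨u * w, ⟨u, w, ht, hw, rfl⟩, fun i hi hix => ?_⟩
    cases i with
    | zero =>
      simp only [List.getElem_cons_zero, Equiv.Perm.mul_apply, Nat.mod_eq_of_lt hb]
      rw [inL_fix hrec hw ⟨l.1, hb⟩ List.mem_cons_self, hu]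
    | succ i =>
      have := hwx i (by simpa using hi) (by simpa using hix)
      simp only [List.getElem_cons_succ, Equiv.Perm.mul_apply]
      rw [this, List.getElem_map, Equiv.apply_symm_apply]

/-- Check of a straight-line program. -/
def slpOK : List ℕ → List (ℕ × ℕ × ℕ) → Bool
  | _, [] => true
  | env, (t, i, j) :: rest =>
    decide (i < env.length) && decide (j < env.length) && cmp (env.getD i 0) (env.getD j 0) == t &&
      slpOK (env ++ [t]) rest

theorem slp_real {K : Subgroup (Equiv.Perm (Fin 12))} : ∀ {env : List ℕ} {p : List (ℕ × ℕ × ℕ)},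
    slpOK env p = true → (∀ t ∈ env, ∃ σ ∈ K, tb σ = t) →
      ∀ t ∈ env ++ p.map Prod.fst, ∃ σ ∈ K, tb σ = t
  | env, [], _, he => by simpa using he
  | env, (t, i, j) :: rest, h, he => by
    simp only [slpOK, Bool.and_eq_true, decide_eq_true_eq, beq_iff_eq] at h
    obtain ⟨⟨⟨hi, hj⟩, ht⟩, hrec⟩ := h
    rw [List.getD_eq_getElem _ _ hi, List.getD_eq_getElem _ _ hj] at ht
    obtain ⟨a, ha, ha'⟩ := he _ (List.getElem_mem hi)
    obtain ⟨b, hb, hb'⟩ := he _ (List.getElem_mem hj)
    have := slp_real hrec (fun u hu => by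
      rcases List.mem_append.1 hu with hu | hu
      · exact he u hu
      · rw [List.mem_singleton] at hu
        exact ⟨a * b, K.mul_mem ha hb, by rw [tb_mul, ha', hb', ht, hu]⟩)
    intro u hu
    exact this u (by simpa using hu)

end CfsgLib.Spectrum.M12Perm
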