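/-
A group with the order counts of the alternating group of degree five.
-/
import Cfsg.Agent.Lib.Spectrum.NseBasics
import Cfsg.Agent.Lib.SL2.Dickson.Sixty
import Mathlib

set_option autoImplicit false

namespace CfsgLib.Spectrum

variable {G : Type*} [Group G] [Finite G]

theorem orderCount_zero : orderCount G 0 = 0 := by
  by_contra h
  obtain ⟨g, hg⟩ := orderCount_ne_zero_iff.1 h
  exact (orderOf_pos g).ne' hg

theorem iso_alt_five_of_nse
    (hV : ∀ m, orderCount G m ≠ 0 → orderCount G m = 1 ∨ orderCount G m = 15 ∨
      orderCount G m = 20 ∨ orderCount G m = 24)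
    (h15a : ∃ m, orderCount G m = 15) (h20a : ∃ m, orderCount G m = 20)
    (h24a : ∃ m, orderCount G m = 24) :
    Nonempty (G ≃* alternatingGroup (Fin 5)) := by
  have h1 := orderCount_one (G := G)
  have h0 := orderCount_zero (G := G)
  have hval : ∀ m, 3 ≤ m → orderCount G m ≠ 0 → orderCount G m = 20 ∨ orderCount G m = 24 := by
    intro m hm hne
    obtain ⟨k, hk⟩ := even_orderCount (G := G) hm
    rcases hV m hne with h | h | h | h <;> omega
  have hdis : ∀ m, 3 ≤ m → orderCount G m = 0 ∨ orderCount G m = 20 ∨ orderCount G m = 24 :=
    fun m hm => (Decidable.em (orderCount G m = 0)).imp id (hval m hm)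
  have hs2 : orderCount G 2 = 15 := by
    obtain ⟨m, hm⟩ := h15a
    rcases Nat.lt_or_ge m 3 with h | h
    · interval_cases m <;> omega
    · have := hval m h (by omega); omega
  have h2G : 2 ∣ Nat.card G := dvd_card_of_orderCount_ne_zero (m := 2) (by omega)
  have hp : ∀ p : ℕ, p.Prime → 3 ≤ p → orderCount G p ≠ 0 →
      (p = 3 ∧ orderCount G p = 20) ∨ (p = 5 ∧ orderCount G p = 24) := by
    intro p hp hp3 hne
    have h := dvd_sum_orderCount' hne
    rw [hp.divisors, Finset.sum_pair hp.one_lt.ne, h1] at h
    have ht := totient_dvd_orderCount (G := G) p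
    rw [Nat.totient_prime hp] at ht
    rcases hval p hp3 hne with hv | hv <;> rw [hv] at h ht
    · rw [show 1 + 20 = 3 * 7 from rfl, hp.dvd_mul, Nat.prime_dvd_prime_iff_eq hp Nat.prime_three,
        Nat.prime_dvd_prime_iff_eq hp (by norm_num)] at h
      rcases h with rfl | rfl
      · exact Or.inl ⟨rfl, hv⟩
      · norm_num at ht
    · rw [show 1 + 24 = 5 * 5 from rfl, hp.dvd_mul, Nat.prime_dvd_prime_iff_eq hp Nat.prime_five,
        or_self] at h
      exact Or.inr ⟨h, hv⟩
  have hπ : ∀ p : ℕ, p.Prime → orderCount G p ≠ 0 → p ∈ ({2, 3, 5} : Finset ℕ) := by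
    intro p hp' hne
    rcases hp'.eq_two_or_odd' with rfl | hodd
    · simp
    have hp3 : 3 ≤ p := by have := hp'.two_le; rcases hodd with ⟨k, rfl⟩; omega
    rcases hp p hp' hp3 hne with ⟨rfl, -⟩ | ⟨rfl, -⟩ <;> simp
  have hv5 : orderCount G 5 ≠ 0 → orderCount G 5 = 24 := fun h => by
    rcases hp 5 Nat.prime_five (by norm_num) h with ⟨h', -⟩ | ⟨-, h'⟩
    · omega
    · exact h'
  by_cases hs3 : orderCount G 3 = 0
  · exfalso
    have h3G : ¬ 3 ∣ Nat.card G := fun h => orderCount_ne_zero_of_prime_dvd Nat.prime_three h hs3
    have z25 : orderCount G 25 = 0 := by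
      by_contra hne
      have h := dvd_sum_orderCount' hne
      rw [show Nat.divisors 25 = {1, 5, 25} by decide] at h
      simp only [Finset.mem_insert, Finset.mem_singleton, Nat.reduceEqDiff, or_self,
        not_false_eq_true, Finset.sum_insert, Finset.sum_singleton] at h
      have ht := totient_dvd_orderCount (G := G) 25
      rw [show Nat.totient 25 = 20 by decide] at ht
      have := hv5 (orderCount_ne_zero_of_dvd hne (by norm_num))
      have := hval 25 (by norm_num) hne
      omega
    have hv10 : orderCount G 10 = 0 ∨ orderCount G 10 = 20 := by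
      by_cases hne : orderCount G 10 = 0
      · exact Or.inl hne
      right
      have h := dvd_sum_orderCount' hne
      rw [show Nat.divisors 10 = {1, 2, 5, 10} by decide] at h
      simp only [Finset.mem_insert, Finset.mem_singleton, Nat.reduceEqDiff, or_self,
        not_false_eq_true, Finset.sum_insert, Finset.sum_singleton] at h
      have := hv5 (orderCount_ne_zero_of_dvd hne (by norm_num))
      have := hval 10 (by norm_num) hne
      omega
    have z20 : orderCount G 20 = 0 := by
      by_contra hne
      have h := dvd_sum_orderCount' hne
      rw [show Nat.divisors 20 = {1, 2, 4, 5, 10, 20} by decide] at h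
      simp only [Finset.mem_insert, Finset.mem_singleton, Nat.reduceEqDiff, or_self,
        not_false_eq_true, Finset.sum_insert, Finset.sum_singleton] at h
      have ht := totient_dvd_orderCount (G := G) 20
      rw [show Nat.totient 20 = 8 by decide] at ht
      have := hv5 (orderCount_ne_zero_of_dvd hne (by norm_num))
      have := hval 20 (by norm_num) hne
      have := hval 4 (by norm_num) (orderCount_ne_zero_of_dvd hne (by norm_num))
      have := orderCount_ne_zero_of_dvd (d := 10) hne (by norm_num)
      omega
    have z32 : orderCount G 32 = 0 := by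
      by_contra hne
      have ht := totient_dvd_orderCount (G := G) 32
      rw [show Nat.totient 32 = 16 by decide] at ht
      have := hval 32 (by norm_num) hne
      omega
    have hπ' : ∀ p : ℕ, p.Prime → orderCount G p ≠ 0 → p ∈ ({2, 5} : Finset ℕ) := by
      intro p hp' hne
      have := hπ p hp' hne
      simp only [Finset.mem_insert, Finset.mem_singleton] at this ⊢
      rcases this with rfl | rfl | rfl
      · exact Or.inl rfl
      · exact absurd hs3 hne
      · exact Or.inr rfl
    have z40 : orderCount G 40 = 0 := orderCount_eq_zero_of_dvd z20 (by norm_num)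
    have z50 : orderCount G 50 = 0 := orderCount_eq_zero_of_dvd z25 (by norm_num)
    have z80 : orderCount G 80 = 0 := orderCount_eq_zero_of_dvd z20 (by norm_num)
    have hA : ∀ m, orderCount G m ≠ 0 → m ∈ ({1, 2, 4, 5, 8, 10, 16} : Finset ℕ) := by
      refine mem_of_closed hπ' (by simp) ?_
      intro a ha p hp hne
      simp only [Finset.mem_insert, Finset.mem_singleton] at ha hp
      rcases ha with rfl | rfl | rfl | rfl | rfl | rfl | rfl <;> rcases hp with rfl | rfl <;>
        first
          | decide
          | exact absurd z25 hne
          | exact absurd z32 hne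
          | exact absurd z20 hne
          | exact absurd z40 hne
          | exact absurd z50 hne
          | exact absurd z80 hne
    have hsum := card_eq_sum_orderCount hA
    simp only [Finset.mem_insert, Finset.mem_singleton, Nat.reduceEqDiff, or_self,
      not_false_eq_true, Finset.sum_insert, Finset.sum_singleton] at hsum
    have := hdis 4 (by norm_num)
    have := hdis 8 (by norm_num)
    have := hdis 16 (by norm_num)
    by_cases hs5 : orderCount G 5 = 0
    · have h10 : orderCount G 10 = 0 := orderCount_eq_zero_of_dvd hs5 (by norm_num)
      have h2p : IsPGroup 2 G := by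
        rw [IsPGroup.iff_orderOf]
        intro g
        refine ⟨_, Nat.eq_prime_pow_of_unique_prime_dvd (orderOf_pos g).ne' fun {q} hq hqd => ?_⟩
        have hqne : orderCount G q ≠ 0 :=
          orderCount_ne_zero_of_prime_dvd hq (hqd.trans (orderOf_dvd_natCard g))
        have := hπ' q hq hqne
        simp only [Finset.mem_insert, Finset.mem_singleton] at this
        rcases this with rfl | rfl
        · rfl
        · exact absurd hs5 hqne
      have : Fact (Nat.Prime 2) := ⟨Nat.prime_two⟩
      obtain ⟨k, hk⟩ := h2p.exists_card_eq
      have hk7 : k < 7 := by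
        by_contra h
        have : 2 ^ 7 ≤ 2 ^ k := Nat.pow_le_pow_right two_pos (by omega)
        omega
      obtain ⟨m, hm⟩ := h20a
      have hm' := hA m (by omega)
      simp only [Finset.mem_insert, Finset.mem_singleton] at hm'
      obtain ⟨n, hn⟩ := h24a
      have hn' := hA n (by omega)
      simp only [Finset.mem_insert, Finset.mem_singleton] at hn'
      have h16 : orderCount G 16 ≠ 20 := fun h => by
        have ht := totient_dvd_orderCount (G := G) 16
        rw [show Nat.totient 16 = 8 by decide, h] at ht
        omega
      have h84 : orderCount G 8 = 0 → orderCount G 16 = 0 :=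
        fun h => orderCount_eq_zero_of_dvd h (by norm_num)
      rw [hk] at hsum
      rcases hm' with rfl | rfl | rfl | rfl | rfl | rfl | rfl <;>
        rcases hn' with rfl | rfl | rfl | rfl | rfl | rfl | rfl <;>
        (interval_cases k <;> omega)
    · have h5G := dvd_card_of_orderCount_ne_zero hs5
      have : Fact (Nat.Prime 5) := ⟨Nat.prime_five⟩
      have h25 : 25 ∣ Nat.card G := by
        by_contra h25
        obtain ⟨e1, e2⟩ := orderCount_eq_pred_mul_card_sylow (p := 5) (G := G) (by norm_num; exact h25) h5G
        rw [hv5 hs5] at e1
        rw [show Nat.card (Sylow 5 G) = 6 by omega] at e2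
        omega
      have h8 : orderCount G 8 ≠ 0 → 8 ∣ Nat.card G := dvd_card_of_orderCount_ne_zero
      have h84 : orderCount G 8 = 0 → orderCount G 16 = 0 :=
        fun h => orderCount_eq_zero_of_dvd h (by norm_num)
      have := hv5 hs5
      omega
  · have hv3 : orderCount G 3 = 20 := by
      rcases hp 3 Nat.prime_three le_rfl hs3 with ⟨-, h⟩ | ⟨h, -⟩ <;> omega
    have : Fact (Nat.Prime 3) := ⟨Nat.prime_three⟩
    have h3G := dvd_card_of_orderCount_ne_zero hs3
    have z27 : orderCount G 27 = 0 := by
      by_contra hne
      have ht := totient_dvd_orderCount (G := G) 27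
      rw [show Nat.totient 27 = 18 by decide] at ht
      have := hval 27 (by norm_num) hne
      omega
    have h27 : ¬ 27 ∣ Nat.card G := fun hd => by
      have h := dvd_sum_orderCount hd
      rw [show Nat.divisors 27 = {1, 3, 9, 27} by decide] at h
      simp only [Finset.mem_insert, Finset.mem_singleton, Nat.reduceEqDiff, or_self,
        not_false_eq_true, Finset.sum_insert, Finset.sum_singleton] at h
      have := hdis 9 (by norm_num)
      have ht := totient_dvd_orderCount (G := G) 9
      rw [show Nat.totient 9 = 6 by decide] at ht
      omega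
    have z9 : orderCount G 9 = 0 := by
      by_contra hne
      have := mul_orderCount_le_of_cyclic (G := G) (p := 3) (k := 1) le_rfl (by norm_num; exact h27)
        (by norm_num; exact hne)
      norm_num at this
      have := hval 9 (by norm_num) hne
      omega
    have h9 : ¬ 3 ^ 2 ∣ Nat.card G := fun hd => by
      norm_num at hd
      have h := dvd_sum_orderCount hd
      rw [show Nat.divisors 9 = {1, 3, 9} by decide] at h
      simp only [Finset.mem_insert, Finset.mem_singleton, Nat.reduceEqDiff, or_self,
        not_false_eq_true, Finset.sum_insert, Finset.sum_singleton] at h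
      omega
    have z6 : orderCount G 6 = 0 := by
      by_contra hne
      have h := dvd_sum_orderCount' hne
      rw [show Nat.divisors 6 = {1, 2, 3, 6} by decide] at h
      simp only [Finset.mem_insert, Finset.mem_singleton, Nat.reduceEqDiff, or_self,
        not_false_eq_true, Finset.sum_insert, Finset.sum_singleton] at h
      have hd := orderCount_dvd_orderCount_mul (G := G) h9 Nat.prime_two (by norm_num)
      rw [hv3] at hd
      norm_num at hd
      have := hval 6 (by norm_num) hne
      omega
    have z15 : orderCount G 15 = 0 := by
      by_contra hne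
      have hd := orderCount_dvd_orderCount_mul (G := G) h9 Nat.prime_five (by norm_num)
      rw [hv3] at hd
      norm_num at hd
      have ht := totient_dvd_orderCount (G := G) 15
      rw [show Nat.totient 15 = 8 by decide] at ht
      have := hval 15 (by norm_num) hne
      omega
    have hle : Nat.card G ≤ 60 := by
      have h := card_le_mul_orderCount (G := G) h9 hs3 (fun q hq hne => ?_)
      · omega
      · by_contra hne'
        have := hπ q hq (orderCount_ne_zero_of_dvd hne' (dvd_mul_left q 3))
        simp only [Finset.mem_insert, Finset.mem_singleton] at this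
        rcases this with rfl | rfl | rfl
        · exact hne' z6
        · exact hne rfl
        · exact hne' z15
    obtain ⟨n, hn⟩ := h24a
    have hn123 : n ≠ 1 ∧ n ≠ 2 ∧ n ≠ 3 := ⟨by rintro rfl; omega, by rintro rfl; omega, by rintro rfl; omega⟩
    have hge := orderCount_add_le (G := G) (A := {1, 2, 3, n})
    rw [Finset.sum_insert (by simp; omega), Finset.sum_insert (by simp; omega),
      Finset.sum_insert (by simp; omega), Finset.sum_singleton] at hge
    have h60 : Nat.card G = 60 := by omega
    have hs5 : orderCount G 5 ≠ 0 :=
      orderCount_ne_zero_of_prime_dvd Nat.prime_five (by rw [h60]; norm_num)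
    refine CfsgLib.SL2.Dickson.Sixty.nonempty_mulEquiv_alternating_five h60 fun R hR hRn => ?_
    have hidx : R.index = 12 := by
      have := R.card_mul_index
      rw [hR, h60] at this
      omega
    have h := orderCount_eq_of_coprime_index R (m := 5) (by rw [hidx]; decide)
    rw [hv5 hs5] at h
    have := one_add_orderCount_le (G := R) (a := 5) (by norm_num)
    omega

end CfsgLib.Spectrum
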