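/-
A group with the order counts of the alternating group of degree four.
-/
import Cfsg.Agent.Lib.Spectrum.NseBasics
import Cfsg.Agent.S0228
import Mathlib

set_option autoImplicit false

namespace CfsgLib.Spectrum

variable {G : Type*} [Group G] [Finite G]

theorem iso_alt_four_of_nse
    (hV : ∀ m, orderCount G m ≠ 0 → orderCount G m = 1 ∨ orderCount G m = 3 ∨ orderCount G m = 8)
    (h3a : ∃ m, orderCount G m = 3) (h8a : ∃ m, orderCount G m = 8) :
    Nonempty (G ≃* alternatingGroup (Fin 4)) := by
  have h1 := orderCount_one (G := G)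
  have hval : ∀ m, 3 ≤ m → orderCount G m ≠ 0 → orderCount G m = 8 := by
    intro m hm hne
    obtain ⟨k, hk⟩ := even_orderCount (G := G) hm
    rcases hV m hne with h | h | h <;> omega
  have hs2 : orderCount G 2 = 3 := by
    obtain ⟨m, hm⟩ := h3a
    rcases Nat.lt_or_ge m 3 with h | h
    · interval_cases m
      · exfalso
        obtain ⟨g, hg⟩ := orderCount_ne_zero_iff.1 (show orderCount G 0 ≠ 0 by omega)
        exact (orderOf_pos g).ne' hg
      · omega
      · exact hm
    · have := hval m h (by omega); omega
  have hπ : ∀ p : ℕ, p.Prime → orderCount G p ≠ 0 → p ∈ ({2, 3} : Finset ℕ) := by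
    intro p hp hne
    rcases hp.eq_two_or_odd' with rfl | hodd
    · simp
    have hp3 : 3 ≤ p := by have := hp.two_le; rcases hodd with ⟨k, rfl⟩; omega
    have h := dvd_sum_orderCount' hne
    rw [hp.divisors, Finset.sum_pair hp.one_lt.ne, h1, hval p hp3 hne,
      show 1 + 8 = 3 * 3 from rfl, hp.dvd_mul] at h
    simp [(Nat.prime_dvd_prime_iff_eq hp Nat.prime_three).1 (h.elim id id)]
  have z8 : orderCount G 8 = 0 := by
    by_contra hne
    have h := dvd_sum_orderCount' hne
    rw [show Nat.divisors 8 = {1, 2, 4, 8} by decide] at h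
    simp only [Finset.mem_insert, Finset.mem_singleton, Nat.reduceEqDiff, or_self,
      not_false_eq_true, Finset.sum_insert, Finset.sum_singleton] at h
    have := hval 8 (by norm_num) hne
    have := hval 4 (by norm_num) (orderCount_ne_zero_of_dvd hne (by norm_num))
    omega
  have z9 : orderCount G 9 = 0 := by
    by_contra hne
    have h := dvd_sum_orderCount' hne
    rw [show Nat.divisors 9 = {1, 3, 9} by decide] at h
    simp only [Finset.mem_insert, Finset.mem_singleton, Nat.reduceEqDiff, or_self,
      not_false_eq_true, Finset.sum_insert, Finset.sum_singleton] at h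
    have := hval 9 (by norm_num) hne
    have := hval 3 (by norm_num) (orderCount_ne_zero_of_dvd hne (by norm_num))
    omega
  have z6 : orderCount G 6 = 0 := by
    by_contra hne
    have h := dvd_sum_orderCount' hne
    rw [show Nat.divisors 6 = {1, 2, 3, 6} by decide] at h
    simp only [Finset.mem_insert, Finset.mem_singleton, Nat.reduceEqDiff, or_self,
      not_false_eq_true, Finset.sum_insert, Finset.sum_singleton] at h
    have := hval 6 (by norm_num) hne
    have := hval 3 (by norm_num) (orderCount_ne_zero_of_dvd hne (by norm_num))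
    omega
  have z12 : orderCount G 12 = 0 := orderCount_eq_zero_of_dvd z6 (by norm_num)
  have hA : ∀ m, orderCount G m ≠ 0 → m ∈ ({1, 2, 3, 4} : Finset ℕ) := by
    refine mem_of_closed hπ (by simp) ?_
    intro a ha p hp hne
    simp only [Finset.mem_insert, Finset.mem_singleton] at ha hp
    rcases ha with rfl | rfl | rfl | rfl <;> rcases hp with rfl | rfl <;>
      first
        | decide
        | exact absurd z6 hne
        | exact absurd z8 hne
        | exact absurd z9 hne
        | exact absurd z12 hne
  have hsum := card_eq_sum_orderCount hA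
  simp only [Finset.mem_insert, Finset.mem_singleton, Nat.reduceEqDiff, or_self,
    not_false_eq_true, Finset.sum_insert, Finset.sum_singleton] at hsum
  have e4 : orderCount G 4 = 0 ∨ orderCount G 4 = 8 := by
    by_cases h : orderCount G 4 = 0
    · exact Or.inl h
    · exact Or.inr (hval 4 (by norm_num) h)
  have e3 : orderCount G 3 = 0 ∨ orderCount G 3 = 8 := by
    by_cases h : orderCount G 3 = 0
    · exact Or.inl h
    · exact Or.inr (hval 3 (by norm_num) h)
  have hp5 : ¬ 5 ∣ Nat.card G := fun h => by
    have := hπ 5 Nat.prime_five (orderCount_ne_zero_of_prime_dvd Nat.prime_five h)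
    simp at this
  obtain ⟨m, hm⟩ := h8a
  have hm' := hA m (by omega)
  simp only [Finset.mem_insert, Finset.mem_singleton] at hm'
  have hs3 : orderCount G 3 = 8 := by
    rcases e3 with h | h
    · exfalso
      have h34 : orderCount G 4 = 8 := by
        rcases hm' with rfl | rfl | rfl | rfl <;> omega
      have h12 : Nat.card G = 12 := by omega
      exact orderCount_ne_zero_of_prime_dvd (G := G) Nat.prime_three (by omega) h
    · exact h
  have h12 : Nat.card G = 12 := by omega
  refine Cfsg.Agent.S0228.result h12 fun z hz hzc => ?_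
  obtain ⟨y, hy⟩ := orderCount_ne_zero_iff.1 (show orderCount G 3 ≠ 0 by omega)
  have hcomm : Commute y z := Subgroup.mem_center_iff.1 hzc y
  have h6 := hcomm.orderOf_mul_eq_mul_orderOf_of_coprime (by rw [hy, hz]; decide)
  rw [hy, hz] at h6
  exact orderCount_ne_zero_iff.2 ⟨_, h6⟩ z6

end CfsgLib.Spectrum
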