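/-
A group with the order counts of the alternating group of degree six.
-/
import Cfsg.Agent.Lib.Spectrum.NseAltFive
import Cfsg.Agent.S0497
import Mathlib

set_option autoImplicit false

namespace CfsgLib.Spectrum

variable {G : Type*} [Group G] [Finite G]

/-- A group of order 360 with 80 elements of order 3, 144 of order 5 and none of order 10 or 15 is
simple. -/
theorem isSimple_of_counts (h360 : Nat.card G = 360) (h3 : orderCount G 3 = 80)
    (h5 : orderCount G 5 = 144) (h10 : orderCount G 10 = 0) (h15 : orderCount G 15 = 0) :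
    IsSimpleGroup G := by
  classical
  have : Fact (Nat.Prime 5) := ⟨Nat.prime_five⟩
  have : Nontrivial G := Finite.one_lt_card_iff_nontrivial.1 (by omega)
  refine ⟨fun N hN => ?_⟩
  by_contra hc
  push_neg at hc
  obtain ⟨hbot, htop⟩ := hc
  have hd1 : 1 < Nat.card N := (Subgroup.one_lt_card_iff_ne_bot N).2 hbot
  have hi1 : N.index ≠ 1 := fun h => htop (Subgroup.index_eq_one.1 h)
  have hmul := N.card_mul_index
  rw [h360] at hmul
  have hdiv : Nat.card N ∈ Nat.divisors 360 :=
    Nat.mem_divisors.2 ⟨hmul ▸ dvd_mul_right _ _, by norm_num⟩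
  have hc5 : Nat.Coprime 5 N.index → 1 + 144 ≤ Nat.card N := fun h => by
    have := one_add_orderCount_le (G := N) (a := 5) (by norm_num)
    rw [orderCount_eq_of_coprime_index N h, h5] at this
    exact this
  have hc3 : Nat.Coprime 3 N.index → 1 + 80 ≤ Nat.card N := fun h => by
    have := one_add_orderCount_le (G := N) (a := 3) (by norm_num)
    rw [orderCount_eq_of_coprime_index N h, h3] at this
    exact this
  have hcop : ∀ p : ℕ, p.Prime → ¬ p ∣ N.index → Nat.Coprime p N.index :=
    fun p hp h => hp.coprime_iff_not_dvd.2 h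
  obtain ⟨y, hy⟩ := orderCount_ne_zero_iff.1 (show orderCount G 5 ≠ 0 by omega)
  by_cases h5N : 5 ∣ Nat.card N
  · have hidx5 : ¬ 5 ∣ N.index := fun h => by
      have := Nat.mul_dvd_mul h5N h
      rw [hmul] at this
      norm_num at this
    have h145 := hc5 (hcop 5 Nat.prime_five hidx5)
    have hidx : N.index = 2 := by
      have : N.index * 145 ≤ 360 := by nlinarith
      have : N.index ≠ 0 := Subgroup.index_ne_zero_of_finite
      omega
    have h180 : Nat.card N = 180 := by rw [hidx] at hmul; omega
    have hh := orderCount_add_le (G := N) (A := {1, 3, 5})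
    rw [Finset.sum_insert (by simp), Finset.sum_pair (by norm_num), orderCount_one,
      orderCount_eq_of_coprime_index N (hcop 3 Nat.prime_three (by rw [hidx]; norm_num)),
      orderCount_eq_of_coprime_index N (hcop 5 Nat.prime_five hidx5), h3, h5, h180] at hh
    omega
  · have hnocomm : ∀ x ∈ N, x ≠ 1 → ¬ Commute y x := by
      intro x hx hx1 hxy
      obtain ⟨q, hq, hqd⟩ := Nat.exists_prime_and_dvd (fun h => hx1 (orderOf_eq_one_iff.1 h))
      have hq1 : orderOf (x ^ (orderOf x / q)) = q := orderOf_pow_orderOf_div (orderOf_pos x).ne' hqd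
      have hqN : q ∣ Nat.card N := hqd.trans (Subgroup.orderOf_dvd_natCard N hx)
      have hq5 : q ≠ 5 := fun h => h5N (h ▸ hqN)
      have h6 := (hxy.pow_right (orderOf x / q)).orderOf_mul_eq_mul_orderOf_of_coprime
        (by rw [hy, hq1]; exact (Nat.coprime_primes Nat.prime_five hq).2 (Ne.symm hq5))
      rw [hy, hq1] at h6
      have hne : orderCount G (5 * q) ≠ 0 := orderCount_ne_zero_iff.2 ⟨_, h6⟩
      have hq360 : q ∣ 360 := h360 ▸ hqN.trans (Subgroup.card_subgroup_dvd_card N)
      rw [show 360 = 2 ^ 3 * (3 ^ 2 * 5) from rfl, hq.dvd_mul, hq.dvd_mul] at hq360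
      rcases hq360 with h | h | h
      · rw [(Nat.prime_dvd_prime_iff_eq hq Nat.prime_two).1 (hq.dvd_of_dvd_pow h)] at hne
        exact hne h10
      · rw [(Nat.prime_dvd_prime_iff_eq hq Nat.prime_three).1 (hq.dvd_of_dvd_pow h)] at hne
        exact hne h15
      · exact hq5 ((Nat.prime_dvd_prime_iff_eq hq Nat.prime_five).1 h)
    have hmod : 5 ∣ Nat.card N - 1 := by
      by_contra h
      obtain ⟨x, ⟨hx, hx1⟩, hxy⟩ := exists_commute_of_invariant hy {x : G | x ∈ N ∧ x ≠ 1}
        (fun g x hx => ⟨hN.conj_mem x hx.1 g, by simpa using hx.2⟩) (by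
          rw [Nat.card_coe_set_eq, show {x : G | x ∈ N ∧ x ≠ 1} = (N : Set G) \ {1} from rfl,
            Set.ncard_sdiff_singleton_of_mem N.one_mem, ← Nat.card_coe_set_eq]
          exact h)
      exact hnocomm x hx hx1 hxy
    have hd : Nat.card N = 6 ∨ Nat.card N = 36 := by
      have h72 : Nat.card N ∣ 72 := by
        have hcop5 : Nat.Coprime (Nat.card N) 5 := (Nat.prime_five.coprime_iff_not_dvd.2 h5N).symm
        refine hcop5.dvd_of_dvd_mul_right (show Nat.card N ∣ 72 * 5 by norm_num; exact ⟨_, hmul.symm⟩)
      have hle := Nat.le_of_dvd (by norm_num) h72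
      generalize Nat.card N = d at h72 hle hmod hd1
      interval_cases d <;> omega
    rcases hd with hd | hd
    · have : Fact (Nat.Prime 3) := ⟨Nat.prime_three⟩
      obtain ⟨e1, e2⟩ := orderCount_eq_pred_mul_card_sylow (G := N) (p := 3) (by rw [hd]; norm_num)
        (by rw [hd]; norm_num)
      have h3m := card_sylow_modEq_one 3 N
      rw [hd] at e2
      have hle := Nat.le_of_dvd (by norm_num) e2
      have h31 : Nat.card (Sylow 3 N) = 1 := by
        generalize Nat.card (Sylow 3 N) = n at e2 hle h3m
        unfold Nat.ModEq at h3m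
        interval_cases n <;> omega
      rw [h31] at e1
      obtain ⟨x, ⟨hx, hx3⟩, hxy⟩ := exists_commute_of_invariant hy
        {x : G | x ∈ N ∧ orderOf x = 3}
        (fun g x hx => ⟨hN.conj_mem x hx.1 g, (MulEquiv.orderOf_eq (MulAut.conj g) x).trans hx.2⟩) (by
          have : Nat.card {x : G | x ∈ N ∧ orderOf x = 3} = orderCount N 3 := by
            refine Nat.card_congr ⟨fun x => ⟨⟨x.1, x.2.1⟩, by rw [Subgroup.orderOf_mk]; exact x.2.2⟩,
              fun x => ⟨(x.1 : G), x.1.2, by rw [Subgroup.orderOf_coe]; exact x.2⟩,
              fun x => rfl, fun x => rfl⟩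
          rw [this, e1]
          norm_num)
      exact hnocomm x hx (fun h => by simp [h] at hx3) hxy
    · rw [hd] at hmul
      have hidx : N.index = 10 := by omega
      have := hc3 (hcop 3 Nat.prime_three (by rw [hidx]; norm_num))
      omega

theorem iso_alt_six_of_nse
    (hV : ∀ m, orderCount G m ≠ 0 → orderCount G m = 1 ∨ orderCount G m = 45 ∨
      orderCount G m = 80 ∨ orderCount G m = 90 ∨ orderCount G m = 144)
    (h45a : ∃ m, orderCount G m = 45) (h80a : ∃ m, orderCount G m = 80)
    (h90a : ∃ m, orderCount G m = 90) (h144a : ∃ m, orderCount G m = 144) :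
    Nonempty (G ≃* alternatingGroup (Fin 6)) := by
  have h1 := orderCount_one (G := G)
  have h0 := orderCount_zero (G := G)
  have hval : ∀ m, 3 ≤ m → orderCount G m ≠ 0 →
      orderCount G m = 80 ∨ orderCount G m = 90 ∨ orderCount G m = 144 := by
    intro m hm hne
    obtain ⟨k, hk⟩ := even_orderCount (G := G) hm
    rcases hV m hne with h | h | h | h | h <;> omega
  have hdis : ∀ m, 3 ≤ m → orderCount G m = 0 ∨
      orderCount G m = 80 ∨ orderCount G m = 90 ∨ orderCount G m = 144 :=
    fun m hm => (Decidable.em (orderCount G m = 0)).imp id (hval m hm)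
  have hs2 : orderCount G 2 = 45 := by
    obtain ⟨m, hm⟩ := h45a
    rcases Nat.lt_or_ge m 3 with h | h
    · interval_cases m <;> omega
    · have := hval m h (by omega); omega
  have h2G : 2 ∣ Nat.card G := dvd_card_of_orderCount_ne_zero (m := 2) (by omega)
  have hp : ∀ p : ℕ, p.Prime → 3 ≤ p → orderCount G p ≠ 0 →
      (p = 3 ∧ orderCount G p = 80) ∨ (p = 5 ∧ orderCount G p = 144) ∨
        (p = 7 ∧ orderCount G p = 90) := by
    intro p hp hp3 hne
    have h := dvd_sum_orderCount' hne
    rw [hp.divisors, Finset.sum_pair hp.one_lt.ne, h1] at h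
    have ht := totient_dvd_orderCount (G := G) p
    rw [Nat.totient_prime hp] at ht
    rcases hval p hp3 hne with hv | hv | hv <;> rw [hv] at h ht
    · rw [show 1 + 80 = 3 ^ 4 from rfl] at h
      exact Or.inl ⟨(Nat.prime_dvd_prime_iff_eq hp Nat.prime_three).1 (hp.dvd_of_dvd_pow h), hv⟩
    · rw [show 1 + 90 = 7 * 13 from rfl, hp.dvd_mul, Nat.prime_dvd_prime_iff_eq hp (by norm_num),
        Nat.prime_dvd_prime_iff_eq hp (by norm_num)] at h
      rcases h with rfl | rfl
      · exact Or.inr (Or.inr ⟨rfl, hv⟩)
      · norm_num at ht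
    · rw [show 1 + 144 = 5 * 29 from rfl, hp.dvd_mul, Nat.prime_dvd_prime_iff_eq hp (by norm_num),
        Nat.prime_dvd_prime_iff_eq hp (by norm_num)] at h
      rcases h with rfl | rfl
      · exact Or.inr (Or.inl ⟨rfl, hv⟩)
      · norm_num at ht
  have hπ : ∀ p : ℕ, p.Prime → orderCount G p ≠ 0 → p = 2 ∨ p = 3 ∨ p = 5 ∨ p = 7 := by
    intro p hp' hne
    rcases hp'.eq_two_or_odd' with rfl | hodd
    · simp
    have hp3 : 3 ≤ p := by have := hp'.two_le; rcases hodd with ⟨k, rfl⟩; omega
    rcases hp p hp' hp3 hne with ⟨rfl, -⟩ | ⟨rfl, -⟩ | ⟨rfl, -⟩ <;> simp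
  have hv3 : orderCount G 3 = 0 ∨ orderCount G 3 = 80 := by
    by_cases h : orderCount G 3 = 0
    · exact Or.inl h
    · rcases hp 3 Nat.prime_three le_rfl h with ⟨-, h'⟩ | ⟨h', -⟩ | ⟨h', -⟩ <;> omega
  have hv5 : orderCount G 5 = 0 ∨ orderCount G 5 = 144 := by
    by_cases h : orderCount G 5 = 0
    · exact Or.inl h
    · rcases hp 5 Nat.prime_five (by norm_num) h with ⟨h', -⟩ | ⟨-, h'⟩ | ⟨h', -⟩ <;> omega
  have hv7 : orderCount G 7 = 0 ∨ orderCount G 7 = 90 := by
    by_cases h : orderCount G 7 = 0
    · exact Or.inl h
    · rcases hp 7 (by norm_num) (by norm_num) h with ⟨h', -⟩ | ⟨h', -⟩ | ⟨-, h'⟩ <;> omega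
  have : Fact (Nat.Prime 2) := ⟨Nat.prime_two⟩
  have : Fact (Nat.Prime 3) := ⟨Nat.prime_three⟩
  have : Fact (Nat.Prime 5) := ⟨Nat.prime_five⟩
  have : Fact (Nat.Prime 7) := ⟨by norm_num⟩
  -- no elements of order seven
  have z7 : orderCount G 7 = 0 := by
    by_contra h7
    have h7G := dvd_card_of_orderCount_ne_zero h7
    have hv : orderCount G 7 = 90 := hv7.resolve_left h7
    have h49 : ¬ 7 ^ 2 ∣ Nat.card G := fun hd => by
      norm_num at hd
      have h := dvd_sum_orderCount hd
      rw [show Nat.divisors 49 = {1, 7, 49} by decide] at h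
      simp only [Finset.mem_insert, Finset.mem_singleton, Nat.reduceEqDiff, or_self,
        not_false_eq_true, Finset.sum_insert, Finset.sum_singleton] at h
      have ht := totient_dvd_orderCount (G := G) 49
      rw [show Nat.totient 49 = 42 by decide] at ht
      have := hdis 49 (by norm_num)
      omega
    have hle : Nat.card G ≤ 630 := by
      have h := card_le_mul_orderCount (G := G) h49 h7 (fun q hq hne => ?_)
      · omega
      · by_contra hne'
        have hd := orderCount_dvd_orderCount_mul (G := G) h49 hq hne
        rw [hv] at hd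
        rcases hπ q hq (orderCount_ne_zero_of_dvd hne' (dvd_mul_left q 7)) with rfl | rfl | rfl | rfl
        · have h := dvd_sum_orderCount' hne'
          norm_num at hne' hd h
          rw [show Nat.divisors 14 = {1, 2, 7, 14} by decide] at h
          simp only [Finset.mem_insert, Finset.mem_singleton, Nat.reduceEqDiff, or_self,
            not_false_eq_true, Finset.sum_insert, Finset.sum_singleton] at h
          have := hval 14 (by norm_num) hne'
          omega
        · norm_num at hne' hd
          have ht := totient_dvd_orderCount (G := G) 21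
          rw [show Nat.totient 21 = 12 by decide] at ht
          have := hval 21 (by norm_num) hne'
          omega
        · norm_num at hne' hd
          have ht := totient_dvd_orderCount (G := G) 35
          rw [show Nat.totient 35 = 24 by decide] at ht
          have := hval 35 (by norm_num) hne'
          omega
        · exact hne rfl
    obtain ⟨e1, e2⟩ := orderCount_eq_pred_mul_card_sylow (p := 7) (G := G) h49 h7G
    rw [hv] at e1
    rw [show Nat.card (Sylow 7 G) = 15 by omega] at e2
    have h5G : 5 ∣ Nat.card G := (show 5 ∣ 15 by norm_num).trans e2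
    have hs5 : orderCount G 5 = 144 :=
      hv5.resolve_left (orderCount_ne_zero_of_prime_dvd Nat.prime_five h5G)
    obtain ⟨f1, f2⟩ := orderCount_eq_pred_mul_card_sylow (p := 5) (G := G) (by omega) h5G
    rw [hs5] at f1
    rw [show Nat.card (Sylow 5 G) = 36 by omega] at f2
    omega
  have h7G : ¬ 7 ∣ Nat.card G := fun h => orderCount_ne_zero_of_prime_dvd (by norm_num) h z7
  have hv4 : orderCount G 4 = 0 ∨ orderCount G 4 = 90 := by
    by_cases hne : orderCount G 4 = 0
    · exact Or.inl hne
    right
    have h := dvd_sum_orderCount' hne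
    rw [show Nat.divisors 4 = {1, 2, 4} by decide] at h
    simp only [Finset.mem_insert, Finset.mem_singleton, Nat.reduceEqDiff, or_self,
      not_false_eq_true, Finset.sum_insert, Finset.sum_singleton] at h
    have := hval 4 (by norm_num) hne
    omega
  have h16 : ¬ 2 ^ 4 ∣ Nat.card G := fun hd => by
    norm_num at hd
    have h := dvd_sum_orderCount hd
    rw [show Nat.divisors 16 = {1, 2, 4, 8, 16} by decide] at h
    simp only [Finset.mem_insert, Finset.mem_singleton, Nat.reduceEqDiff, or_self,
      not_false_eq_true, Finset.sum_insert, Finset.sum_singleton] at h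
    have ht := totient_dvd_orderCount (G := G) 16
    rw [show Nat.totient 16 = 8 by decide] at ht
    have ht8 := totient_dvd_orderCount (G := G) 8
    rw [show Nat.totient 8 = 4 by decide] at ht8
    have := hdis 16 (by norm_num)
    have := hdis 8 (by norm_num)
    have : orderCount G 4 = 0 → orderCount G 8 = 0 := fun h => orderCount_eq_zero_of_dvd h (by norm_num)
    omega
  have z8 : orderCount G 8 = 0 := by
    by_contra hne
    have := mul_orderCount_le_of_cyclic (G := G) (p := 2) (k := 2) (by norm_num) h16
      (by norm_num; exact hne)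
    norm_num at this
    have := orderCount_ne_zero_of_dvd (d := 4) hne (by norm_num)
    have := hval 8 (by norm_num) hne
    omega
  have h27 : ¬ 3 ^ 3 ∣ Nat.card G → orderCount G 9 = 0 := fun h27 => by
    by_contra hne
    have := mul_orderCount_le_of_cyclic (G := G) (p := 3) (k := 1) le_rfl h27
      (by norm_num; exact hne)
    norm_num at this
    have := orderCount_ne_zero_of_dvd (d := 3) hne (by norm_num)
    have := hval 9 (by norm_num) hne
    omega
  have z9 : orderCount G 9 = 0 := by
    by_contra hne
    refine hne (h27 fun hd => ?_)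
    norm_num at hd
    have h := dvd_sum_orderCount hd
    rw [show Nat.divisors 27 = {1, 3, 9, 27} by decide] at h
    simp only [Finset.mem_insert, Finset.mem_singleton, Nat.reduceEqDiff, or_self,
      not_false_eq_true, Finset.sum_insert, Finset.sum_singleton] at h
    have ht := totient_dvd_orderCount (G := G) 27
    rw [show Nat.totient 27 = 18 by decide] at ht
    have ht9 := totient_dvd_orderCount (G := G) 9
    rw [show Nat.totient 9 = 6 by decide] at ht9
    have := hval 9 (by norm_num) hne
    have := hdis 27 (by norm_num)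
    have := orderCount_ne_zero_of_dvd (d := 3) hne (by norm_num)
    omega
  have hv6 : orderCount G 6 = 0 ∨ orderCount G 6 = 90 ∨ orderCount G 6 = 144 := by
    by_cases hne : orderCount G 6 = 0
    · exact Or.inl hne
    have h := dvd_sum_orderCount' hne
    rw [show Nat.divisors 6 = {1, 2, 3, 6} by decide] at h
    simp only [Finset.mem_insert, Finset.mem_singleton, Nat.reduceEqDiff, or_self,
      not_false_eq_true, Finset.sum_insert, Finset.sum_singleton] at h
    have := orderCount_ne_zero_of_dvd (d := 3) hne (by norm_num)
    have := hval 6 (by norm_num) hne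
    omega
  have hv12 : orderCount G 12 = 0 ∨ (orderCount G 6 = 144 ∧ orderCount G 12 = 144) := by
    by_cases hne : orderCount G 12 = 0
    · exact Or.inl hne
    right
    have h := dvd_sum_orderCount' hne
    rw [show Nat.divisors 12 = {1, 2, 3, 4, 6, 12} by decide] at h
    simp only [Finset.mem_insert, Finset.mem_singleton, Nat.reduceEqDiff, or_self,
      not_false_eq_true, Finset.sum_insert, Finset.sum_singleton] at h
    have ht := totient_dvd_orderCount (G := G) 12
    rw [show Nat.totient 12 = 4 by decide] at ht
    have := orderCount_ne_zero_of_dvd (d := 3) hne (by norm_num)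
    have := orderCount_ne_zero_of_dvd (d := 4) hne (by norm_num)
    have := orderCount_ne_zero_of_dvd (d := 6) hne (by norm_num)
    have := hval 12 (by norm_num) hne
    omega
  have z18 : orderCount G 18 = 0 := orderCount_eq_zero_of_dvd z9 (by norm_num)
  have z24 : orderCount G 24 = 0 := orderCount_eq_zero_of_dvd z8 (by norm_num)
  have z36 : orderCount G 36 = 0 := orderCount_eq_zero_of_dvd z9 (by norm_num)
  have hs5 : orderCount G 5 = 144 := by
    refine hv5.resolve_left fun hs5 => ?_
    have h5G : ¬ 5 ∣ Nat.card G := fun h => orderCount_ne_zero_of_prime_dvd Nat.prime_five h hs5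
    have hA : ∀ m, orderCount G m ≠ 0 → m ∈ ({1, 2, 3, 4, 6, 12} : Finset ℕ) := by
      refine mem_of_closed (π := {2, 3}) ?_ (by simp) ?_
      · intro p hp' hne
        rcases hπ p hp' hne with rfl | rfl | rfl | rfl
        · simp
        · simp
        · exact absurd hs5 hne
        · exact absurd z7 hne
      intro a ha p hp hne
      simp only [Finset.mem_insert, Finset.mem_singleton] at ha hp
      rcases ha with rfl | rfl | rfl | rfl | rfl | rfl <;> rcases hp with rfl | rfl <;>
        first
          | decide
          | exact absurd z8 hne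
          | exact absurd z9 hne
          | exact absurd z18 hne
          | exact absurd z24 hne
          | exact absurd z36 hne
    have hsum := card_eq_sum_orderCount hA
    simp only [Finset.mem_insert, Finset.mem_singleton, Nat.reduceEqDiff, or_self,
      not_false_eq_true, Finset.sum_insert, Finset.sum_singleton] at hsum
    obtain ⟨m, hm⟩ := h144a
    have hm' := hA m (by omega)
    simp only [Finset.mem_insert, Finset.mem_singleton] at hm'
    obtain ⟨n, hn⟩ := h90a
    have hn' := hA n (by omega)
    simp only [Finset.mem_insert, Finset.mem_singleton] at hn'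
    have : orderCount G 3 = 0 → orderCount G 6 = 0 := fun h => orderCount_eq_zero_of_dvd h (by norm_num)
    rcases hm' with rfl | rfl | rfl | rfl | rfl | rfl <;>
      rcases hn' with rfl | rfl | rfl | rfl | rfl | rfl <;> omega
  have h5G : 5 ∣ Nat.card G := dvd_card_of_orderCount_ne_zero (by omega)
  have h125 : ¬ 5 ^ 3 ∣ Nat.card G := fun hd => by
    norm_num at hd
    have h := dvd_sum_orderCount hd
    rw [show Nat.divisors 125 = {1, 5, 25, 125} by decide] at h
    simp only [Finset.mem_insert, Finset.mem_singleton, Nat.reduceEqDiff, or_self,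
      not_false_eq_true, Finset.sum_insert, Finset.sum_singleton] at h
    have ht := totient_dvd_orderCount (G := G) 125
    rw [show Nat.totient 125 = 100 by decide] at ht
    have ht' := totient_dvd_orderCount (G := G) 25
    rw [show Nat.totient 25 = 20 by decide] at ht'
    have := hdis 25 (by norm_num)
    have := hdis 125 (by norm_num)
    omega
  have z25 : orderCount G 25 = 0 := by
    by_contra hne
    have := mul_orderCount_le_of_cyclic (G := G) (p := 5) (k := 1) le_rfl h125
      (by norm_num; exact hne)
    norm_num at this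
    have := hval 25 (by norm_num) hne
    omega
  have h25 : ¬ 5 ^ 2 ∣ Nat.card G := fun hd => by
    norm_num at hd
    have h := dvd_sum_orderCount hd
    rw [show Nat.divisors 25 = {1, 5, 25} by decide] at h
    simp only [Finset.mem_insert, Finset.mem_singleton, Nat.reduceEqDiff, or_self,
      not_false_eq_true, Finset.sum_insert, Finset.sum_singleton] at h
    omega
  have z10 : orderCount G 10 = 0 := by
    by_contra hne
    have h := dvd_sum_orderCount' hne
    rw [show Nat.divisors 10 = {1, 2, 5, 10} by decide] at h
    simp only [Finset.mem_insert, Finset.mem_singleton, Nat.reduceEqDiff, or_self,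
      not_false_eq_true, Finset.sum_insert, Finset.sum_singleton] at h
    have hd := orderCount_dvd_orderCount_mul (G := G) h25 Nat.prime_two (by norm_num)
    rw [hs5] at hd
    norm_num at hd
    have := hval 10 (by norm_num) hne
    omega
  have z15 : orderCount G 15 = 0 := by
    by_contra hne
    have h := dvd_sum_orderCount' hne
    rw [show Nat.divisors 15 = {1, 3, 5, 15} by decide] at h
    simp only [Finset.mem_insert, Finset.mem_singleton, Nat.reduceEqDiff, or_self,
      not_false_eq_true, Finset.sum_insert, Finset.sum_singleton] at h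
    have hd := orderCount_dvd_orderCount_mul (G := G) h25 Nat.prime_three (by norm_num)
    rw [hs5] at hd
    norm_num at hd
    have := orderCount_ne_zero_of_dvd (d := 3) hne (by norm_num)
    have := hval 15 (by norm_num) hne
    omega
  have hle : Nat.card G ≤ 720 := by
    have h := card_le_mul_orderCount (G := G) h25 (by omega) (fun q hq hne => ?_)
    · omega
    · by_contra hne'
      rcases hπ q hq (orderCount_ne_zero_of_dvd hne' (dvd_mul_left q 5)) with rfl | rfl | rfl | rfl
      · exact hne' z10
      · exact hne' z15
      · exact hne rfl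
      · exact hne' (orderCount_eq_zero_of_dvd z7 (by norm_num))
  obtain ⟨e1, e2⟩ := orderCount_eq_pred_mul_card_sylow (p := 5) (G := G) h25 h5G
  rw [hs5] at e1
  rw [show Nat.card (Sylow 5 G) = 36 by omega] at e2
  have h3G : 3 ∣ Nat.card G := (show 3 ∣ 36 by norm_num).trans e2
  have hs3 : orderCount G 3 = 80 :=
    hv3.resolve_left (orderCount_ne_zero_of_prime_dvd Nat.prime_three h3G)
  have hA : ∀ m, orderCount G m ≠ 0 → m ∈ ({1, 2, 3, 4, 5, 6, 12} : Finset ℕ) := by
    have z20 : orderCount G 20 = 0 := orderCount_eq_zero_of_dvd z10 (by norm_num)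
    have z30 : orderCount G 30 = 0 := orderCount_eq_zero_of_dvd z10 (by norm_num)
    have z60 : orderCount G 60 = 0 := orderCount_eq_zero_of_dvd z10 (by norm_num)
    refine mem_of_closed (π := {2, 3, 5}) ?_ (by simp) ?_
    · intro p hp' hne
      rcases hπ p hp' hne with rfl | rfl | rfl | rfl
      · simp
      · simp
      · simp
      · exact absurd z7 hne
    intro a ha p hp hne
    simp only [Finset.mem_insert, Finset.mem_singleton] at ha hp
    rcases ha with rfl | rfl | rfl | rfl | rfl | rfl | rfl <;> rcases hp with rfl | rfl | rfl <;>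
      first
        | decide
        | exact absurd z8 hne
        | exact absurd z9 hne
        | exact absurd z10 hne
        | exact absurd z15 hne
        | exact absurd z18 hne
        | exact absurd z20 hne
        | exact absurd z24 hne
        | exact absurd z25 hne
        | exact absurd z30 hne
        | exact absurd z36 hne
        | exact absurd z60 hne
  have hsum := card_eq_sum_orderCount hA
  simp only [Finset.mem_insert, Finset.mem_singleton, Nat.reduceEqDiff, or_self,
    not_false_eq_true, Finset.sum_insert, Finset.sum_singleton] at hsum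
  obtain ⟨n, hn⟩ := h90a
  have hn' := hA n (by omega)
  simp only [Finset.mem_insert, Finset.mem_singleton] at hn'
  norm_num at h16
  have h360 : Nat.card G = 360 := by
    rcases hn' with rfl | rfl | rfl | rfl | rfl | rfl | rfl <;> omega
  have := isSimple_of_counts h360 hs3 hs5 z10 z15
  exact Cfsg.Agent.S0497.result h360

end CfsgLib.Spectrum
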