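import Mathlib

/-!
Two primes in the upper half of an interval, by the proof of Bertrand's postulate.
-/

namespace CfsgLib.Spectrum

open Nat in
lemma centralBinom_le_of_one_prime (n q : ℕ) (hn : 2 < n)
    (hq : ∀ p : ℕ, p.Prime → n < p → p ≤ 2 * n → p = q) :
    centralBinom n ≤ (2 * n) * ((2 * n) ^ sqrt (2 * n) * 4 ^ (2 * n / 3)) := by
  have n2_pos : 1 ≤ 2 * n := by omega
  let f x := x ^ n.centralBinom.factorization x
  rw [show centralBinom n = ∏ x ∈ Finset.range (2 * n + 1), f x from n.prod_pow_factorization_centralBinom.symm,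
    ← Finset.prod_filter_mul_prod_filter_not (Finset.range (2 * n + 1)) (· ≤ 2 * n / 3), mul_comm (2 * n)]
  apply mul_le_mul'
  · let S := {p ∈ Finset.range (2 * n / 3 + 1) | Nat.Prime p}
    have hS : ∏ x ∈ S, f x = ∏ x ∈ (Finset.range (2 * n + 1)).filter (· ≤ 2 * n / 3), f x := by
      have : (Finset.range (2 * n + 1)).filter (· ≤ 2 * n / 3) = Finset.range (2 * n / 3 + 1) := by
        ext x; simp; omega
      rw [this]
      refine Finset.prod_filter_of_ne fun p _ h => ?_
      contrapose h; dsimp only [f]
      rw [factorization_eq_zero_of_not_prime n.centralBinom h, _root_.pow_zero]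
    rw [← hS, ← Finset.prod_filter_mul_prod_filter_not S (· ≤ sqrt (2 * n))]
    apply mul_le_mul'
    · refine (Finset.prod_le_prod' fun p _ => (?_ : f p ≤ 2 * n)).trans ?_
      · exact pow_factorization_choose_le (by omega)
      rw [Finset.prod_const]
      refine pow_right_mono₀ n2_pos ((Finset.card_le_card fun x hx => ?_).trans (le_of_eq (show (Finset.Icc 1 (sqrt (2 * n))).card = sqrt (2 * n) by rw [card_Icc, Nat.add_sub_cancel])))
      obtain ⟨h1, h2⟩ := Finset.mem_filter.1 hx
      exact Finset.mem_Icc.mpr ⟨(Finset.mem_filter.1 h1).2.one_lt.le, h2⟩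
    · refine le_trans ?_ (primorial_le_four_pow (2 * n / 3))
      refine (Finset.prod_le_prod' fun p hp => (?_ : f p ≤ p)).trans ?_
      · obtain ⟨h1, h2⟩ := Finset.mem_filter.1 hp
        refine (pow_right_mono₀ (Finset.mem_filter.1 h1).2.one_lt.le ?_).trans (pow_one p).le
        exact Nat.factorization_choose_le_one (sqrt_lt'.mp <| not_le.1 h2)
      refine Finset.prod_le_prod_of_subset_of_one_le' (Finset.filter_subset _ _) ?_
      exact fun p hp _ => (Finset.mem_filter.1 hp).2.one_lt.le
  · refine le_trans ?_ (show f q ≤ 2 * n from pow_factorization_choose_le (by omega))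
    apply le_of_eq
    have hf : ∀ x ∈ (Finset.range (2 * n + 1)).filter (fun x => ¬ x ≤ 2 * n / 3), x ≠ q → f x = 1 := by
      intro x hx hxq
      rw [Finset.mem_filter, Finset.mem_range] at hx
      show x ^ n.centralBinom.factorization x = 1
      by_cases hp : x.Prime
      · have hxn : x ≤ n := by
          by_contra h
          exact hxq (hq x hp (by omega) (by omega))
        rw [factorization_centralBinom_of_two_mul_self_lt_three_mul hn hxn (by omega), _root_.pow_zero]
      · rw [factorization_eq_zero_of_not_prime n.centralBinom hp, _root_.pow_zero]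
    by_cases hmem : q ∈ (Finset.range (2 * n + 1)).filter (fun x => ¬ x ≤ 2 * n / 3)
    · exact Finset.prod_eq_single_of_mem q hmem hf
    · rw [Finset.prod_eq_one fun x hx => hf x hx (fun e => hmem (e ▸ hx))]
      rw [Finset.mem_filter, Finset.mem_range, not_and_or, not_not] at hmem
      by_cases hp : q.Prime
      · by_cases h2 : 2 * n < q
        · exact (show f q = 1 by
            show q ^ n.centralBinom.factorization q = 1
            rw [factorization_centralBinom_eq_zero_of_two_mul_lt h2, _root_.pow_zero]).symm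
        · exfalso
          obtain ⟨p, hp', h1, h2'⟩ := Nat.exists_prime_lt_and_le_two_mul n (by omega)
          have := hq p hp' h1 h2'
          omega
      · exact (show f q = 1 by
          show q ^ n.centralBinom.factorization q = 1
          rw [factorization_eq_zero_of_not_prime n.centralBinom hp, _root_.pow_zero]).symm

lemma main_inequality {n : ℕ} (hn : 2048 ≤ n) :
    n * ((2 * n) * ((2 * n) ^ Nat.sqrt (2 * n) * 4 ^ (2 * n / 3))) ≤ 4 ^ n := by
  set s := Nat.sqrt (2 * n) with hs
  have h64 : 64 ≤ s := Nat.le_sqrt.mpr (by omega)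
  set k := Nat.log 2 s + 1 with hk
  have hsk : s < 2 ^ k := Nat.lt_pow_succ_log_self (by norm_num) s
  have hks : 2 ^ (k - 1) ≤ s := by
    rw [hk, Nat.add_sub_cancel]; exact Nat.pow_log_le_self 2 (by omega)
  have h7 : 7 ≤ k := by
    by_contra h
    have : 2 ^ k ≤ 2 ^ 6 := Nat.pow_le_pow_right (by norm_num) (by omega)
    omega
  have hgrow : ∀ j : ℕ, 6 ≤ j → 7 * (j + 1) ≤ 2 ^ j := by
    intro j hj
    induction j, hj using Nat.le_induction with
    | base => norm_num
    | succ j hj ih => rw [pow_succ]; omega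
  have h7k : 7 * k ≤ s := by
    have := hgrow (k - 1) (by omega)
    rw [show k - 1 + 1 = k by omega] at this
    omega
  have hss : s * s ≤ 2 * n := Nat.sqrt_le _
  have hexp : 6 * k * (s + 2) ≤ 2 * n := by nlinarith
  have h2n : 2 * n ≤ 2 ^ (2 * k) := by
    rw [pow_mul, ← pow_mul, mul_comm 2 k, pow_mul, sq]
    have h1 : 2 * n < (s + 1) * (s + 1) := Nat.lt_succ_sqrt _
    have h2 : s + 1 ≤ 2 ^ k := hsk
    nlinarith
  have e4 : ∀ j : ℕ, (4 : ℕ) ^ j = 2 ^ (2 * j) := fun j => by rw [pow_mul]; norm_num
  calc n * ((2 * n) * ((2 * n) ^ s * 4 ^ (2 * n / 3)))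
      ≤ 2 ^ (2 * k) * (2 ^ (2 * k) * ((2 ^ (2 * k)) ^ s * 2 ^ (2 * (2 * n / 3)))) := by
        rw [e4]; gcongr; omega
    _ = 2 ^ (2 * k * (s + 2) + 2 * (2 * n / 3)) := by
        rw [← pow_mul, ← pow_add, ← pow_add, ← pow_add]; congr 1; ring
    _ ≤ 2 ^ (2 * n) := by
        apply Nat.pow_le_pow_right (by norm_num)
        have : 3 * (2 * k * (s + 2)) = 6 * k * (s + 2) := by ring
        omega
    _ = 4 ^ n := (e4 n).symm

lemma two_primes_step {n a : ℕ} (b c : ℕ) (pb : Nat.Prime b) (pc : Nat.Prime c) (hbc : b < c)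
    (hc : c ≤ 2 * a) (H : n < a → ∃ p q : ℕ, p.Prime ∧ q.Prime ∧ n < p ∧ p < q ∧ q ≤ 2 * n) (hn : n < b) :
    ∃ p q : ℕ, p.Prime ∧ q.Prime ∧ n < p ∧ p < q ∧ q ≤ 2 * n := by
  by_cases h : n < a
  · exact H h
  · exact ⟨b, c, pb, pc, hn, hbc, by omega⟩

/-- There are two primes in `(n, 2 n]` for `n ≥ 6`. -/
theorem exists_two_primes (n : ℕ) (hn : 6 ≤ n) :
    ∃ p q : ℕ, p.Prime ∧ q.Prime ∧ n < p ∧ p < q ∧ q ≤ 2 * n := by
  rcases lt_or_ge n 2179 with h | h
  · revert h
    refine two_primes_step (a := 1259) 2179 2503 (by norm_num) (by norm_num) (by norm_num) (by norm_num) ?_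
    refine two_primes_step (a := 1093) 1259 2179 (by norm_num) (by norm_num) (by norm_num) (by norm_num) ?_
    refine two_primes_step (a := 631) 1093 1259 (by norm_num) (by norm_num) (by norm_num) (by norm_num) ?_
    refine two_primes_step (a := 547) 631 1093 (by norm_num) (by norm_num) (by norm_num) (by norm_num) ?_
    refine two_primes_step (a := 317) 547 631 (by norm_num) (by norm_num) (by norm_num) (by norm_num) ?_
    refine two_primes_step (a := 277) 317 547 (by norm_num) (by norm_num) (by norm_num) (by norm_num) ?_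
    refine two_primes_step (a := 163) 277 317 (by norm_num) (by norm_num) (by norm_num) (by norm_num) ?_
    refine two_primes_step (a := 139) 163 277 (by norm_num) (by norm_num) (by norm_num) (by norm_num) ?_
    refine two_primes_step (a := 83) 139 163 (by norm_num) (by norm_num) (by norm_num) (by norm_num) ?_
    refine two_primes_step (a := 73) 83 139 (by norm_num) (by norm_num) (by norm_num) (by norm_num) ?_
    refine two_primes_step (a := 43) 73 83 (by norm_num) (by norm_num) (by norm_num) (by norm_num) ?_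
    refine two_primes_step (a := 37) 43 73 (by norm_num) (by norm_num) (by norm_num) (by norm_num) ?_
    refine two_primes_step (a := 23) 37 43 (by norm_num) (by norm_num) (by norm_num) (by norm_num) ?_
    refine two_primes_step (a := 19) 23 37 (by norm_num) (by norm_num) (by norm_num) (by norm_num) ?_
    refine two_primes_step (a := 13) 19 23 (by norm_num) (by norm_num) (by norm_num) (by norm_num) ?_
    refine two_primes_step (a := 11) 13 19 (by norm_num) (by norm_num) (by norm_num) (by norm_num) ?_
    refine two_primes_step (a := 7) 11 13 (by norm_num) (by norm_num) (by norm_num) (by norm_num) ?_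
    refine two_primes_step (a := 6) 7 11 (by norm_num) (by norm_num) (by norm_num) (by norm_num) ?_
    omega
  · by_contra hne
    obtain ⟨q, hq, hq1, hq2⟩ := Nat.exists_prime_lt_and_le_two_mul n (by omega)
    have huniq : ∀ p : ℕ, p.Prime → n < p → p ≤ 2 * n → p = q := by
      intro p hp h1 h2
      rcases lt_trichotomy p q with e | e | e
      · exact absurd ⟨p, q, hp, hq, h1, e, hq2⟩ hne
      · exact e
      · exact absurd ⟨q, p, hq, hp, hq1, e, h2⟩ hne
    have h1 := centralBinom_le_of_one_prime n q (by omega) huniq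
    have h2 := Nat.four_pow_lt_mul_centralBinom n (by omega)
    have h3 := main_inequality (n := n) (by omega)
    have h4 := Nat.mul_le_mul_left n h1
    omega

/-- For `n ≥ 11` there are two primes in `(n / 2, n]`. -/
theorem exists_two_primes_half (n : ℕ) (hn : 11 ≤ n) :
    ∃ p q : ℕ, p.Prime ∧ q.Prime ∧ n < 2 * p ∧ p < q ∧ q ≤ n := by
  by_cases h : n / 2 < 6
  · exact ⟨7, 11, by norm_num, by norm_num, by omega, by norm_num, by omega⟩
  · obtain ⟨p, q, hp, hq, h1, h2, h3⟩ := exists_two_primes (n / 2) (by omega)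
    exact ⟨p, q, hp, hq, by omega, h2, by omega⟩

end CfsgLib.Spectrum
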